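import Mathlib
import Cfsg.Agent.Lib.Helper77.Centric

/-!
# Normal subgroups of `p`-power index: blocks, Brauer pairs, nilpotency (helper77)
-/

set_option autoImplicit false
set_option linter.unusedSectionVars false

namespace Cfsg.Agent.Lib.Helper77

open Cfsg MonoidAlgebra Cfsg.Agent.Lib.Helper78

universe u v

section group

variable {G : Type u} [Group G] [Finite G] {p : ℕ} [Fact p.Prime]

theorem mem_of_isPRegular_of_index {N : Subgroup G} [N.Normal] (hN : ∃ k : ℕ, N.index = p ^ k)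
    {x : G} (hx : IsPRegular p x) : x ∈ N := by
  obtain ⟨k, hk⟩ := hN
  apply mem_of_pow_mem_of_isPRegular hx (a := k)
  rw [← hk]
  exact Subgroup.pow_index_mem N x

/-- A `p`-regular element centralizing `R₀` and acting trivially on `R` modulo `R₀` centralizes
`R`. -/
theorem mem_cen_of_stable_series {R R0 : Subgroup G} (hR0 : IsPGroup p R0) {x : G}
    (hreg : IsPRegular p x) (hx0 : x ∈ Cen R0) (h : ∀ r ∈ R, r⁻¹ * (x * r * x⁻¹) ∈ R0) :
    x ∈ Cen R := by
  show x ∈ Subgroup.centralizer _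
  rw [Subgroup.mem_centralizer_iff]
  intro r hr
  set z := r⁻¹ * (x * r * x⁻¹) with hz
  have hzR := h r hr
  have hxz : z * x = x * z := (Subgroup.mem_centralizer_iff.1 hx0) z hzR
  have hxr : x * r * x⁻¹ = r * z := by rw [hz]; group
  have hxzn : ∀ n : ℕ, x * z ^ n * x⁻¹ = z ^ n := by
    intro n
    have : Commute x (z ^ n) := (Commute.pow_right (show Commute x z from hxz.symm) n)
    rw [this.eq, mul_inv_cancel_right]
  have key : ∀ n : ℕ, x ^ n * r * (x ^ n)⁻¹ = r * z ^ n := by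
    intro n
    induction n with
    | zero => simp
    | succ n ih =>
      calc x ^ (n + 1) * r * (x ^ (n + 1))⁻¹ = x * (x ^ n * r * (x ^ n)⁻¹) * x⁻¹ := by
            rw [pow_succ']; group
        _ = (x * r * x⁻¹) * (x * z ^ n * x⁻¹) := by rw [ih]; group
        _ = r * z ^ (n + 1) := by rw [hxr, hxzn, pow_succ', mul_assoc]
  have h1 := key (orderOf x)
  rw [pow_orderOf_eq_one] at h1
  have h2 : z ^ orderOf x = 1 := by simpa using h1.symm
  obtain ⟨a, ha⟩ := hR0 ⟨z, hzR⟩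
  have ha' : z ^ p ^ a = 1 := congrArg Subtype.val ha
  have hcop : Nat.Coprime (orderOf x) (p ^ a) :=
    Nat.Coprime.pow_right _ ((Nat.coprime_comm.1 ((Nat.Prime.coprime_iff_not_dvd Fact.out).2 hreg)))
  have h3 : z = 1 := by
    have := pow_gcd_eq_one.2 ⟨h2, ha'⟩
    rwa [hcop.gcd_eq_one, pow_one] at this
  rw [h3, mul_one] at hxr
  calc r * x = (x * r * x⁻¹) * x := by rw [hxr]
    _ = x * r := by group

end group

section main

variable {G : Type u} [Group G] [Fintype G] (M : Ideal AlgInt) [hP : M.IsPrime]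
variable {p : ℕ} [Fact p.Prime]

/-- Osima: block idempotents are supported on `p`-regular elements. -/
theorem IsPrimIdem.coeff_singular (hM : IsPModular p M) {H : Subgroup G}
    {ε : MonoidAlgebra (ResF M) G} (h : IsPrimIdem H ε) {x : G} (hx : ¬ IsPRegular p x) :
    ε.coeff x = 0 := by
  by_cases hxH : x ∈ H
  · obtain ⟨b, hb, rfl⟩ := (isPrimIdem_iff M).1 h
    have := Fintype.ofFinite ↥H
    rw [coeff_idem_of_mem M b hxH, blockCoeff_eq_zero_of_singular hM hb, red_zero]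
    have h1 : orderOf (⟨x, hxH⟩ : H) = orderOf x := Subgroup.orderOf_mk x hxH
    rw [h1]
    unfold IsPRegular at hx
    exact not_not.1 hx
  · exact h.mem.1 x hxH

variable {N : Subgroup G} [N.Normal]

theorem IsPrimIdem.mem_zsub_inf (hM : IsPModular p M) (hN : ∃ k : ℕ, N.index = p ^ k)
    {H : Subgroup G} {ε : MonoidAlgebra (ResF M) G} (h : IsPrimIdem H ε) :
    ε ∈ zsub (ResF M) (N ⊓ H) := by
  refine ⟨fun x hx => ?_, h.mem.2.mono inf_le_right⟩
  by_cases hreg : IsPRegular p x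
  · exact h.mem.1 x (fun hxH => hx ⟨mem_of_isPRegular_of_index hN hreg, hxH⟩)
  · exact h.coeff_singular M hM hreg

/-- The block of `H` covering a block of `H ∩ N`. -/
theorem exists_cover_up (hM : IsPModular p M) (hN : ∃ k : ℕ, N.index = p ^ k)
    {H : Subgroup G} {g : MonoidAlgebra (ResF M) G} (hg : IsPrimIdem (N ⊓ H) g) :
    ∃ g', IsPrimIdem H g' ∧ g' * g = g ∧ ∀ g'', IsPrimIdem H g'' → g'' * g = g → g'' = g' := by
  classical
  obtain ⟨S, hS, hsum⟩ := hasBlockDecomp (G := G) M H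
  obtain ⟨g', hg', h1, h2⟩ := hg.existsUnique_of_decomp S (fun e => e)
    (fun e he => ((hS e).1 he).mem_zsub_inf M hM hN) (fun e he => ((hS e).1 he).idem)
    (fun e he e' he' hne => ((hS e).1 he).mul_eq_zero_of_ne ((hS e').1 he') hne) hsum
  exact ⟨g', (hS g').1 hg', h1, fun g'' h3 h4 => h2 g'' ((hS g'').2 h3) h4⟩

/-- A block of `H ∩ N` covered by a block of `H`. -/
theorem exists_cover_down (hM : IsPModular p M) (hN : ∃ k : ℕ, N.index = p ^ k)
    {H : Subgroup G} {g' : MonoidAlgebra (ResF M) G} (hg' : IsPrimIdem H g') :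
    ∃ g, IsPrimIdem (N ⊓ H) g ∧ g' * g = g := by
  classical
  obtain ⟨S, hS, hsum⟩ := hasBlockDecomp (G := G) M (N ⊓ H)
  by_contra hcon
  push Not at hcon
  apply hg'.ne_zero
  calc g' = g' * ∑ e ∈ S, e := by rw [hsum, mul_one]
    _ = ∑ e ∈ S, g' * e := Finset.mul_sum _ _ _
    _ = 0 := Finset.sum_eq_zero fun e he =>
      (((hS e).1 he).prim g' (hg'.mem_zsub_inf M hM hN) hg'.idem).resolve_left
        (hcon e ((hS e).1 he))

theorem inf_le_normalizer_inf (H : Subgroup G) : H ≤ Subgroup.normalizer ((N ⊓ H : Subgroup G) : Set G) := by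
  intro t ht
  rw [Subgroup.mem_normalizer_iff]
  intro x
  constructor
  · rintro ⟨h1, h2⟩
    exact ⟨(inferInstance : N.Normal).conj_mem x h1 t, H.mul_mem (H.mul_mem ht h2) (H.inv_mem ht)⟩
  · rintro ⟨h1, h2⟩
    refine ⟨?_, ?_⟩
    · have := (inferInstance : N.Normal).conj_mem _ h1 t⁻¹
      simpa [mul_assoc] using this
    · have := H.mul_mem (H.mul_mem (H.inv_mem ht) h2) ht
      simpa [mul_assoc] using this

/-- The blocks of `H ∩ N` covered by a block of `H` are `H`-conjugate. -/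
theorem cover_conj (hM : IsPModular p M) (hN : ∃ k : ℕ, N.index = p ^ k)
    {H : Subgroup G} {g' g₁ g₂ : MonoidAlgebra (ResF M) G} (hg' : IsPrimIdem H g')
    (h₁ : IsPrimIdem (N ⊓ H) g₁) (h₂ : IsPrimIdem (N ⊓ H) g₂) (e₁ : g' * g₁ = g₁)
    (e₂ : g' * g₂ = g₂) : ∃ t ∈ H, cj t g₁ = g₂ := by
  have hHn : H ≤ Subgroup.normalizer ((N ⊓ H : Subgroup G) : Set G) := inf_le_normalizer_inf H
  have horth : ∀ x ∈ H, cj x g₁ = g₁ ∨ cj x g₁ * g₁ = 0 := fun x hx => h₁.cj_eq_or_orth (hHn hx)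
  have hs : orbSum H g₁ ∈ zsub (ResF M) H :=
    ⟨(suppIn_orbSum hHn h₁.mem.1).mono inf_le_right, fixedBy_orbSum H g₁⟩
  have hsi := orbSum_idem h₁.idem horth
  have hs1 : orbSum H g₁ * g₁ = g₁ := orbSum_mul_of_mem h₁.idem horth (self_mem_orbF H g₁)
  have hs2 : orbSum H g₁ * g' = g' := by
    rcases hg'.prim _ hs hsi with h | h
    · exact h
    · exfalso
      apply h₁.ne_zero
      calc g₁ = orbSum H g₁ * (g' * g₁) := by rw [e₁, hs1]
        _ = 0 := by rw [← mul_assoc, h, zero_mul]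
  have h3 : orbSum H g₁ * g₂ ≠ 0 := by
    have : orbSum H g₁ * g₂ = g₂ := by
      calc orbSum H g₁ * g₂ = orbSum H g₁ * (g' * g₂) := by rw [e₂]
        _ = g₂ := by rw [← mul_assoc, hs2, e₂]
    rw [this]
    exact h₂.ne_zero
  obtain ⟨t, ht, h4⟩ := mem_orbF.1 (mem_orbF_of_mul_ne_zero hHn h₁ h₂ h3)
  exact ⟨t, ht, h4⟩

/-- Nilpotency of a block of `N`, in terms of the group algebra of `G`. -/
def IsRNil (p : ℕ) (N : Subgroup G) (b : MonoidAlgebra (ResF M) G) : Prop :=
  ∀ R : Subgroup G, R ≤ N → IsPGroup p R → ∀ g, IsPrimIdem (N ⊓ Cen R) g →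
    trunc (Cen R) b * g = g → ∀ x ∈ N, x ∈ Subgroup.normalizer (R : Set G) → cj x g = g →
      IsPRegular p x → x ∈ Cen R

theorem mem_normalizer_inf {R : Subgroup G} {x : G}
    (hx : x ∈ Subgroup.normalizer (R : Set G)) :
    x ∈ Subgroup.normalizer ((N ⊓ R : Subgroup G) : Set G) := by
  rw [Subgroup.mem_normalizer_iff] at hx ⊢
  intro y
  constructor
  · rintro ⟨h1, h2⟩
    exact ⟨(inferInstance : N.Normal).conj_mem y h1 x, (hx y).1 h2⟩
  · rintro ⟨h1, h2⟩
    refine ⟨?_, (hx y).2 h2⟩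
    have := (inferInstance : N.Normal).conj_mem _ h1 x⁻¹
    simpa [mul_assoc] using this

/-- If the block of `G` is nilpotent, so is the block of `N` with the same idempotent. -/
theorem isRNil_of_isANil (hM : IsPModular p M) (hN : ∃ k : ℕ, N.index = p ^ k)
    {b : MonoidAlgebra (ResF M) G} (hb : IsPrimIdem ⊤ b) (hA : IsANil p b) : IsRNil M p N b := by
  have := resF_charP hM
  intro R _ hRp g hg hbg x _ hxR hxg hreg
  obtain ⟨g', hg', h1, huniq⟩ := exists_cover_up M hM hN hg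
  have hxC : x ∈ Subgroup.normalizer ((Cen R : Subgroup G) : Set G) :=
    normalizer_le_normalizer_centralizer R hxR
  have hfix : FixedBy R b := hb.mem.2.mono le_top
  have hβ : trunc (Cen R) b ∈ zsub (ResF M) (Cen R) := trunc_mem_zsub le_top hb.mem
  have hβi : trunc (Cen R) b * trunc (Cen R) b = trunc (Cen R) b := by
    rw [← trunc_centralizer_mul p R hRp hfix hfix, hb.idem]
  have hblk : trunc (Cen R) b * g' = g' := by
    rcases hg'.prim _ hβ hβi with h | h
    · exact h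
    · exfalso
      apply hg.ne_zero
      calc g = trunc (Cen R) b * (g' * g) := by rw [h1, hbg]
        _ = 0 := by rw [← mul_assoc, h, zero_mul]
  refine hA (R, g') ⟨hRp, hg'⟩ ⟨hb, hblk⟩ x ?_ hreg
  refine ⟨hxR, mem_stabSub.2 ?_⟩
  apply huniq _ (hg'.cj_of_mem_normalizer hxC)
  calc cj x g' * g = cj x g' * cj x g := by rw [hxg]
    _ = g := by rw [← map_mul, h1, hxg]

/-- If the block of `N` is nilpotent, so is the block of `G` with the same idempotent. -/
theorem isANil_of_isRNil (hM : IsPModular p M) (hN : ∃ k : ℕ, N.index = p ^ k)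
    {b : MonoidAlgebra (ResF M) G} (hR : IsRNil M p N b) : IsANil p b := by
  have := resF_charP hM
  have hdec := hasBlockDecomp (G := G) M
  rintro ⟨R, g'⟩ hz hzb x hx hreg
  have hxN : x ∈ N := mem_of_isPRegular_of_index hN hreg
  have hxR : x ∈ Subgroup.normalizer (R : Set G) := stabP_le_normalizer _ hx
  have hx0 : x ∈ Subgroup.normalizer ((N ⊓ R : Subgroup G) : Set G) := mem_normalizer_inf hxR
  have hRn : R ≤ Subgroup.normalizer ((N ⊓ R : Subgroup G) : Set G) :=
    fun r hr => mem_normalizer_inf (Subgroup.le_normalizer hr)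
  obtain ⟨f, hf, huniq⟩ := existsUnique_normal hdec hz (Q := N ⊓ R) inf_le_right hRn
  have hxf : cj x f = f := by
    apply huniq
    have h1 := hf.cjP x
    rw [mem_stabP.1 hx] at h1
    have h2 : cjP x ((N ⊓ R, f) : APair (ResF M) G) = (N ⊓ R, cj x f) :=
      Prod.ext (map_conj_eq_of_mem_normalizer hx0) rfl
    rwa [h2] at h1
  have hfb : IsABlockOf b ((N ⊓ R, f) : APair (ResF M) G) := (isABlockOf_iff_of_normal hdec hf).2 hzb
  have hfp : IsPrimIdem (Cen (N ⊓ R)) f := hf.1.2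
  obtain ⟨g, hg, hfg⟩ := exists_cover_down M hM hN hfp
  have hxC : x ∈ Subgroup.normalizer ((Cen (N ⊓ R) : Subgroup G) : Set G) :=
    normalizer_le_normalizer_centralizer _ hx0
  have hxNC : x ∈ Subgroup.normalizer ((N ⊓ Cen (N ⊓ R) : Subgroup G) : Set G) :=
    mem_normalizer_inf hxC
  have hg2 : IsPrimIdem (N ⊓ Cen (N ⊓ R)) (cj x g) := hg.cj_of_mem_normalizer hxNC
  obtain ⟨t, ht, htg⟩ := cover_conj M hM hN hfp hg hg2 hfg
    (by rw [← hxf, ← map_mul, hfg])
  -- the power argument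
  have hpow : ∀ n : ℕ, cj (x ^ n) g = cj (t ^ n) g := by
    intro n
    induction n with
    | zero => simp
    | succ n ih =>
      have htn : t ^ n ∈ Cen (N ⊓ R) := Subgroup.pow_mem _ ht n
      have hm : (t ^ n)⁻¹ * (x * t ^ n * x⁻¹) ∈ N ⊓ Cen (N ⊓ R) := by
        refine ⟨?_, ?_⟩
        · have h1 : (t ^ n)⁻¹ * x * (t ^ n)⁻¹⁻¹ ∈ N :=
            (inferInstance : N.Normal).conj_mem x hxN _
          have h2 := N.mul_mem h1 (N.inv_mem hxN)
          have e : (t ^ n)⁻¹ * x * (t ^ n)⁻¹⁻¹ * x⁻¹ = (t ^ n)⁻¹ * (x * t ^ n * x⁻¹) := by group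
          rwa [e] at h2
        · exact Subgroup.mul_mem _ (Subgroup.inv_mem _ htn)
            ((Subgroup.mem_normalizer_iff.1 hxC _).1 htn)
      have htg' : IsPrimIdem (N ⊓ Cen (N ⊓ R)) (cj t g) := by rw [htg]; exact hg2
      calc cj (x ^ (n + 1)) g = cj x (cj (x ^ n) g) := by rw [pow_succ', cj_mul_apply]
        _ = cj x (cj (t ^ n) g) := by rw [ih]
        _ = cj (x * t ^ n * x⁻¹) (cj x g) := by
            rw [← cj_mul_apply, ← cj_mul_apply, inv_mul_cancel_right]
        _ = cj (t ^ n * ((t ^ n)⁻¹ * (x * t ^ n * x⁻¹))) (cj t g) := by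
            rw [htg, mul_inv_cancel_left]
        _ = cj (t ^ n) (cj t g) := by rw [cj_mul_apply, htg'.mem.2 _ hm]
        _ = cj (t ^ (n + 1)) g := by rw [← cj_mul_apply, pow_succ]
  have hxg : cj x g = g := by
    obtain ⟨k, hk⟩ := hN
    have h1 : x ^ p ^ k ∈ stabSub g := by
      rw [mem_stabSub, hpow]
      apply hg.mem.2
      refine ⟨?_, Subgroup.pow_mem _ ht _⟩
      rw [← hk]
      exact Subgroup.pow_index_mem N t
    exact mem_stabSub.1 (mem_of_pow_mem_of_isPRegular hreg h1)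
  have hbg : trunc (Cen (N ⊓ R)) b * g = g := by
    calc trunc (Cen (N ⊓ R)) b * g = trunc (Cen (N ⊓ R)) b * (f * g) := by rw [hfg]
      _ = g := by rw [← mul_assoc, hfb.2, hfg]
  have hR0p : IsPGroup p (N ⊓ R : Subgroup G) := hz.1.to_le inf_le_right
  have hc0 := hR (N ⊓ R) inf_le_left hR0p g hg hbg x hxN hx0 hxg hreg
  apply mem_cen_of_stable_series hR0p hreg hc0
  intro r hr
  refine ⟨?_, ?_⟩
  · have h1 : r⁻¹ * x * r⁻¹⁻¹ ∈ N := (inferInstance : N.Normal).conj_mem x hxN _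
    have h2 := N.mul_mem h1 (N.inv_mem hxN)
    have e : r⁻¹ * x * r⁻¹⁻¹ * x⁻¹ = r⁻¹ * (x * r * x⁻¹) := by group
    rwa [e] at h2
  · exact R.mul_mem (R.inv_mem hr) ((Subgroup.mem_normalizer_iff.1 hxR _).1 hr)

end main

section transport

variable {G : Type u} [Group G] [Fintype G] (M : Ideal AlgInt) [hP : M.IsPrime]
variable {p : ℕ} [Fact p.Prime]

theorem cen_subgroupOf_eq (N : Subgroup G) (R₁ : Subgroup N) :
    (Cen (R₁.map N.subtype)).subgroupOf N = Cen R₁ := by
  ext x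
  rw [Subgroup.mem_subgroupOf]
  constructor
  · intro h
    show x ∈ Subgroup.centralizer _
    rw [Subgroup.mem_centralizer_iff]
    intro r hr
    exact Subtype.ext ((Subgroup.mem_centralizer_iff.1 h) r ⟨r, hr, rfl⟩)
  · intro h
    show (x : G) ∈ Subgroup.centralizer _
    rw [Subgroup.mem_centralizer_iff]
    rintro _ ⟨r, hr, rfl⟩
    exact congrArg Subtype.val ((Subgroup.mem_centralizer_iff.1 h) r hr)

theorem mem_normalizer_map_subtype_iff (N : Subgroup G) (R₁ : Subgroup N) (x : N) :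
    (x : G) ∈ Subgroup.normalizer ((R₁.map N.subtype : Subgroup G) : Set G) ↔
      x ∈ Subgroup.normalizer (R₁ : Set N) := by
  rw [Subgroup.mem_normalizer_iff, Subgroup.mem_normalizer_iff]
  constructor
  · intro h y
    have h1 := h y
    constructor
    · intro hy
      obtain ⟨w, hw, hwe⟩ := h1.1 ⟨y, hy, rfl⟩
      have : w = x * y * x⁻¹ := Subtype.ext hwe
      rwa [← this]
    · intro hy
      obtain ⟨w, hw, hwe⟩ := h1.2 ⟨x * y * x⁻¹, hy, rfl⟩
      have : w = y := Subtype.ext hwe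
      rwa [← this]
  · intro h y
    constructor
    · rintro ⟨w, hw, rfl⟩
      exact ⟨x * w * x⁻¹, (h w).1 hw, rfl⟩
    · rintro ⟨w, hw, hwe⟩
      have hyN : y ∈ N := by
        have h2 : (x : G)⁻¹ * (w : G) * x ∈ N := N.mul_mem (N.mul_mem (N.inv_mem x.2) w.2) x.2
        have e : (x : G)⁻¹ * (w : G) * x = y := by
          have : (w : G) = x * y * (x : G)⁻¹ := hwe
          rw [this]; group
        rwa [e] at h2
      refine ⟨⟨y, hyN⟩, (h ⟨y, hyN⟩).2 ?_, rfl⟩
      have : w = x * ⟨y, hyN⟩ * x⁻¹ := Subtype.ext hwe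
      rwa [← this]

/-- Nilpotency of a block of the group `N`, expressed in the group algebra of `G`. -/
theorem isANil_iff_isRNil (N : Subgroup G) {c : Set (IrrCharacter N)} (hc : IsPBlock M c) :
    IsANil p (ebar M c) ↔ IsRNil M p N (idem M N c) := by
  have := Fintype.ofFinite ↥N
  have key : ∀ (R₁ : Subgroup N) (g₁ : MonoidAlgebra (ResF M) N),
      (trunc (Cen (R₁.map N.subtype)) (idem M N c) * emb N g₁ = emb N g₁ ↔
        trunc (Cen R₁) (ebar M c) * g₁ = g₁) := by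
    intro R₁ g₁
    rw [idem_eq_emb, trunc_emb, cen_subgroupOf_eq, ← map_mul]
    exact ⟨fun h => emb_injective N h, fun h => by rw [h]⟩
  have key2 : ∀ (R₁ : Subgroup N) (g₁ : MonoidAlgebra (ResF M) N),
      IsPrimIdem (N ⊓ Cen (R₁.map N.subtype)) (emb N g₁) ↔ IsPrimIdem (Cen R₁) g₁ := by
    intro R₁ g₁
    rw [← map_cen_eq, isPrimIdem_emb_map]
  have key3 : ∀ (x : N) (g₁ : MonoidAlgebra (ResF M) N),
      cj (x : G) (emb N g₁) = emb N g₁ ↔ cj x g₁ = g₁ := by
    intro x g₁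
    rw [cj_emb]
    exact ⟨fun h => emb_injective N h, fun h => by rw [h]⟩
  have key4 : ∀ (R₁ : Subgroup N) (x : N), (x : G) ∈ Cen (R₁.map N.subtype) ↔ x ∈ Cen R₁ := by
    intro R₁ x
    rw [← cen_subgroupOf_eq, Subgroup.mem_subgroupOf]
  have key5 : ∀ x : N, IsPRegular p (x : G) ↔ IsPRegular p x := by
    intro x
    unfold IsPRegular
    rw [Subgroup.orderOf_coe]
  constructor
  · intro h R hRN hRp g hg hbg x hxN hxR hxg hreg
    have hR1 : (R.subgroupOf N).map N.subtype = R := Subgroup.map_subgroupOf_eq_of_le hRN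
    have hg1 : emb N (res N g) = g := exists_emb_eq_of_suppIn (hg.mem.1.mono inf_le_left)
    rw [← hR1] at hg hbg hxR ⊢
    rw [← hg1] at hg hbg hxg
    have hRp1 : IsPGroup p (R.subgroupOf N) := by
      rw [← isPGroup_map_subtype_iff, hR1]; exact hRp
    have h1 := h (R.subgroupOf N, res N g) ⟨hRp1, (key2 _ _).1 hg⟩
      ⟨isPrimIdem_ebar M hc, (key _ _).1 hbg⟩ ⟨x, hxN⟩
      ⟨(mem_normalizer_map_subtype_iff N _ ⟨x, hxN⟩).1 hxR,
        mem_stabSub.2 ((key3 ⟨x, hxN⟩ _).1 hxg)⟩ ((key5 ⟨x, hxN⟩).1 hreg)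
    exact (key4 _ ⟨x, hxN⟩).2 h1
  · rintro h ⟨R₁, g₁⟩ hz hzb x hx hreg
    have h1 := h (R₁.map N.subtype) (Subgroup.map_subtype_le R₁)
      ((isPGroup_map_subtype_iff R₁).2 hz.1) (emb N g₁) ((key2 _ _).2 hz.2) ((key _ _).2 hzb.2)
      x x.2 ((mem_normalizer_map_subtype_iff N _ x).2 hx.1) ((key3 x _).2 (mem_stabSub.1 hx.2))
      ((key5 x).2 hreg)
    exact (key4 _ x).1 h1

end transport

end Cfsg.Agent.Lib.Helper77
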