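import Mathlib
import Cfsg.Agent.Lib.Helper77.MaxChar
import Cfsg.Agent.Lib.Helper77.PIndex

/-!
# The inertial quotient of a block with abelian / cyclic defect group (helper77)
-/

set_option autoImplicit false
set_option linter.unusedSectionVars false

namespace Cfsg.Agent.Lib.Helper77

open Cfsg MonoidAlgebra Cfsg.Agent.Lib.Helper78 Cfsg.Agent.Lib.Helper85

universe u v

section grp

variable {G : Type u} [Group G]

/-- conjugation by an element of the normalizer of a cyclic subgroup is a power map -/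
theorem exists_zpow_of_normalizer_cyclic {P : Subgroup G} (hcyc : IsCyclic P) {g : G}
    (hg : g ∈ Subgroup.normalizer (P : Set G)) : ∃ k : ℤ, ∀ y ∈ P, g * y * g⁻¹ = y ^ k := by
  obtain ⟨a, ha⟩ := hcyc.exists_generator
  have h1 : g * a * g⁻¹ ∈ P := (Subgroup.mem_normalizer_iff.1 hg a).1 a.2
  obtain ⟨k, hk⟩ := Subgroup.mem_zpowers_iff.1 (ha ⟨_, h1⟩)
  refine ⟨k, fun y hy => ?_⟩
  obtain ⟨m, hm⟩ := Subgroup.mem_zpowers_iff.1 (ha ⟨y, hy⟩)
  have hm' : (a : G) ^ m = y := by simpa using congrArg Subtype.val hm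
  have hk' : (a : G) ^ k = g * a * g⁻¹ := by simpa using congrArg Subtype.val hk
  rw [← hm', ← conj_zpow, ← hk', ← zpow_mul, ← zpow_mul, mul_comm]

theorem le_cen_of_isCyclic {P : Subgroup G} (hcyc : IsCyclic P) : P ≤ Cen P := by
  intro x hx
  show x ∈ Subgroup.centralizer _
  rw [Subgroup.mem_centralizer_iff]
  intro y hy
  let _ := IsCyclic.commGroup (α := P)
  exact congrArg Subtype.val (mul_comm (⟨y, hy⟩ : P) ⟨x, hx⟩)

theorem conj_pow_zpow {P : Subgroup G} {g : G} {k : ℤ} (h : ∀ y ∈ P, g * y * g⁻¹ = y ^ k)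
    (j : ℕ) : ∀ y ∈ P, g ^ j * y * (g ^ j)⁻¹ = y ^ (k ^ j) := by
  induction j with
  | zero => intro y _; simp
  | succ j ih =>
    intro y hy
    have h1 : g ^ (j + 1) * y * (g ^ (j + 1))⁻¹ = g ^ j * (g * y * g⁻¹) * (g ^ j)⁻¹ := by
      rw [pow_succ]; group
    rw [h1, h y hy, ih _ (P.zpow_mem hy k), ← zpow_mul, pow_succ, mul_comm]

variable [Finite G] {p : ℕ} [Fact p.Prime]

/-- an element of the normalizer of a cyclic `p`-group fixing a nonidentity element acts as a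
`p`-element -/
theorem pow_mem_cen_of_fix_cyclic {P : Subgroup G} (hcyc : IsCyclic P) (hPp : IsPGroup p P)
    {g : G} (hg : g ∈ Subgroup.normalizer (P : Set G)) {x : G} (hx : x ∈ P) (hx1 : x ≠ 1)
    (hfix : g * x * g⁻¹ = x) : ∃ n : ℕ, g ^ p ^ n ∈ Cen P := by
  have hp : p.Prime := Fact.out
  obtain ⟨k, hk⟩ := exists_zpow_of_normalizer_cyclic hcyc hg
  obtain ⟨n, hn⟩ := IsPGroup.iff_card.1 hPp
  have h1 : x ^ (k - 1) = 1 := by
    rw [zpow_sub, zpow_one, ← hk x hx, hfix, mul_inv_cancel]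
  have h2 : (orderOf x : ℤ) ∣ k - 1 := orderOf_dvd_iff_zpow_eq_one.2 h1
  have h3 : p ∣ orderOf x := by
    obtain ⟨i, hi⟩ := hPp ⟨x, hx⟩
    have hi' : x ^ p ^ i = 1 := by simpa using congrArg Subtype.val hi
    obtain ⟨j, -, hj⟩ := (Nat.dvd_prime_pow hp).1 (orderOf_dvd_of_pow_eq_one hi')
    rcases Nat.eq_zero_or_pos j with rfl | hj0
    · rw [pow_zero, orderOf_eq_one_iff] at hj
      exact absurd hj hx1
    · rw [hj]; exact dvd_pow_self p hj0.ne'
  have h4 : (p : ℤ) ∣ k - 1 := (Int.natCast_dvd_natCast.2 h3).trans h2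
  have h5 := dvd_sub_pow_of_dvd_sub h4 n
  rw [one_pow] at h5
  refine ⟨n, ?_⟩
  show _ ∈ Subgroup.centralizer _
  rw [Subgroup.mem_centralizer_iff]
  intro y hy
  have h6 := conj_pow_zpow hk (p ^ n) y hy
  have h7 : y ^ (k ^ p ^ n - 1) = 1 := by
    apply orderOf_dvd_iff_zpow_eq_one.1
    have h8 : orderOf y ∣ p ^ n := by
      rw [← hn]
      have := orderOf_dvd_natCard (⟨y, hy⟩ : P)
      rwa [Subgroup.orderOf_mk] at this
    refine (Int.natCast_dvd_natCast.2 h8).trans (Dvd.dvd.trans ?_ h5)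
    push_cast
    exact pow_dvd_pow _ (Nat.le_succ n)
  have h9 : y ^ (k ^ p ^ n) = y := by
    have : k ^ p ^ n = (k ^ p ^ n - 1) + 1 := by ring
    rw [this, zpow_add, h7, one_mul, zpow_one]
  rw [h9] at h6
  calc y * g ^ p ^ n = (g ^ p ^ n * y * (g ^ p ^ n)⁻¹) * g ^ p ^ n := by rw [h6]
    _ = g ^ p ^ n * y := by group

/-- a group acting freely on a nontrivial cyclic `p`-group is cyclic of order dividing `p - 1` -/
theorem cyclic_quotient_of_free {P T : Subgroup G} (hcyc : IsCyclic P) (hPp : IsPGroup p P)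
    (hP1 : P ≠ ⊥) (hTN : T ≤ Subgroup.normalizer (P : Set G))
    (hfree : ∀ g ∈ T, ∀ x ∈ P, x ≠ 1 → g * x * g⁻¹ = x → g ∈ Cen P)
    [hn : ((Cen P).subgroupOf T).Normal] :
    IsCyclic (T ⧸ (Cen P).subgroupOf T) ∧ (Cen P).relIndex T ∣ p - 1 := by
  have hp : p.Prime := Fact.out
  have hnt : Nontrivial P := (Subgroup.nontrivial_iff_ne_bot P).2 hP1
  obtain ⟨n, hn0, hcard⟩ := hPp.nontrivial_iff_card.1 hnt
  obtain ⟨z, hz⟩ := exists_prime_orderOf_dvd_card' (G := P) p (by rw [hcard]; exact dvd_pow_self p hn0.ne')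
  have hz' : orderOf (z : G) = p := by rw [← hz]; exact Subgroup.orderOf_coe z
  have hz1 : (z : G) ≠ 1 := by
    intro h
    rw [h, orderOf_one] at hz'
    exact hp.one_lt.ne hz'
  set Z : Subgroup G := Subgroup.zpowers (z : G) with hZ
  have hZP : Z ≤ P := by rw [hZ, Subgroup.zpowers_le]; exact z.2
  have hstep : ∀ g ∈ T, ∀ h ∈ Z, g * h * g⁻¹ ∈ Z := by
    intro g hg h hh
    obtain ⟨k, hk⟩ := exists_zpow_of_normalizer_cyclic hcyc (hTN hg)
    rw [hk h (hZP hh)]
    exact Z.zpow_mem hh k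
  have hTZ : T ≤ Subgroup.normalizer (Z : Set G) := by
    intro g hg
    rw [Subgroup.mem_normalizer_iff]
    intro h
    refine ⟨hstep g hg h, fun hh => ?_⟩
    have := hstep g⁻¹ (T.inv_mem hg) _ hh
    have h2 : g⁻¹ * (g * h * g⁻¹) * g⁻¹⁻¹ = h := by group
    rwa [h2] at this
  let ψ : T →* MulAut Z := (Z.normalizerMonoidHom).comp (Subgroup.inclusion hTZ)
  have hψ : ∀ (t : T) (v : Z), ((ψ t v : Z) : G) = (t : G) * v * (t : G)⁻¹ := fun t v => rfl
  have hK : ∀ t ∈ (Cen P).subgroupOf T, ψ t = 1 := by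
    intro t ht
    ext v
    rw [hψ]
    have h1 : (t : G) ∈ Subgroup.centralizer (P : Set G) := ht
    have h2 := (Subgroup.mem_centralizer_iff.1 h1) v (hZP v.2)
    rw [← h2]
    simp
  let φ : (T ⧸ (Cen P).subgroupOf T) →* MulAut Z := QuotientGroup.lift _ ψ hK
  have hφ : Function.Injective φ := by
    rw [injective_iff_map_eq_one]
    intro q
    induction q using QuotientGroup.induction_on with
    | H t =>
      intro ht
      have h1 : ψ t = 1 := ht
      rw [QuotientGroup.eq_one_iff]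
      have h2 := hψ t ⟨z, Subgroup.mem_zpowers _⟩
      rw [h1] at h2
      exact hfree t t.2 z z.2 hz1 h2.symm
  have hZc : Nat.card Z = p := by rw [hZ, Nat.card_zpowers, hz']
  have hcycZ : IsCyclic Z := by rw [hZ]; infer_instance
  have hprime : Fact (Nat.card Z).Prime := ⟨hZc ▸ hp⟩
  have hcycA : IsCyclic (MulAut Z) :=
    isCyclic_of_injective (IsCyclic.mulAutMulEquiv Z).toMonoidHom (IsCyclic.mulAutMulEquiv Z).injective
  refine ⟨isCyclic_of_injective φ hφ, ?_⟩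
  have h1 : (Cen P).relIndex T = Nat.card (T ⧸ (Cen P).subgroupOf T) := rfl
  rw [h1]
  have h2 := Subgroup.card_dvd_of_injective φ hφ
  rwa [IsCyclic.card_mulAut, hZc, Nat.totient_prime hp] at h2

end grp

variable {G : Type u} [Group G] [Fintype G] (M : Ideal AlgInt) [hP : M.IsPrime]
variable {p : ℕ} [Fact p.Prime]

/-- a root of a block with abelian defect group `P` gives a maximal Brauer pair -/
theorem isAMax_of_induced (hM : IsPModular p M) {B : Set (IrrCharacter G)} (hB : IsPBlock M B)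
    {P : Subgroup G} (hPD : IsDefectGroup p M B P) (hab : P ≤ Cen P)
    {c : Set (IrrCharacter (Cen P))} (hc : IsInducedBlock M (Cen P) c B) :
    IsAMax p (toA M ⟨P, c⟩) ∧ IsABlockOf (ebar M B) (toA M ⟨P, c⟩) := by
  have hPp : IsPGroup p P := Helper16.IsDefectGroup.isPGroup hPD
  haveI := resF_charP hM
  have h1 := (isInducedBlock_iff_trunc M hM hPp hab le_rfl
    (Subgroup.centralizer_le_normalizer _) hc.1 hB).1 hc
  have hblk : IsABlockOf (ebar M B) (toA M ⟨P, c⟩) := ⟨isPrimIdem_ebar M hB, h1⟩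
  have hpair : IsAPair p (toA M ⟨P, c⟩) := isAPair_toA M ⟨hPp, hc.1⟩
  refine ⟨⟨hpair, fun z hz => ?_⟩, hblk⟩
  obtain ⟨w, hzw, hw⟩ := exists_isAMax (hz.isAPair_right hpair)
  have hwb : IsABlockOf (ebar M B) w :=
    (isABlockOf_iff_of_le (hasBlockDecomp M) (hz.trans hzw)).1 hblk
  have hwD := isDefectGroup_of_isAMax M hM hB hw hwb
  have hcard : Nat.card w.1 = Nat.card P := by
    rw [card_of_isDefectGroup hM hB hwD, card_of_isDefectGroup hM hB hPD]
  have h2 : P ≤ z.1 := hz.le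
  have h3 : z.1 ≤ w.1 := hzw.le
  have h4 : P = w.1 := Subgroup.eq_of_le_of_card_ge (h2.trans h3) hcard.le
  exact le_antisymm (h4 ▸ h3) h2

/-- the inertial quotient of a maximal pair with abelian first component is a `p'`-group -/
theorem mem_cen_of_pow_mem_of_abelian (hM : IsPModular p M) {y : APair (ResF M) G}
    (hy : IsAMax p y) (hab : y.1 ≤ Cen y.1) {g : G} (hg : g ∈ stabP y) {a : ℕ}
    (h2 : g ^ p ^ a ∈ Cen y.1) : g ∈ Cen y.1 := by
  have hp : p.Prime := Fact.out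
  -- write `orderOf g = p ^ i * m`
  obtain ⟨i, m, hm, hgm⟩ := Nat.exists_eq_pow_mul_and_not_dvd (orderOf_pos g).ne' p hp.ne_one
  have h3 : g ^ m ∈ Cen y.1 := by
    have h4 : g ^ m ∈ y.1 ⊔ Cen y.1 := by
      refine mem_sup_cen_of_isAMax M hM hy (Subgroup.pow_mem _ hg m) ?_
      have h5 : (g ^ m) ^ p ^ i = 1 := by
        rw [← pow_mul, mul_comm, ← hgm, pow_orderOf_eq_one]
      obtain ⟨j, -, hj⟩ := (Nat.dvd_prime_pow hp).1 (orderOf_dvd_of_pow_eq_one h5)
      exact ⟨j, hj⟩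
    rwa [sup_eq_right.2 hab] at h4
  have hcop : Nat.Coprime (p ^ a) m := Nat.Coprime.pow_left a ((Nat.Prime.coprime_iff_not_dvd hp).2 hm)
  have h6 : g ^ ((Nat.gcd (p ^ a) m : ℕ) : ℤ) ∈ Cen y.1 := by
    rw [Nat.gcd_eq_gcd_ab, zpow_add, zpow_mul, zpow_mul, zpow_natCast, zpow_natCast]
    exact Subgroup.mul_mem _ (Subgroup.zpow_mem _ h2 _) (Subgroup.zpow_mem _ h3 _)
  rw [hcop.gcd_eq_one] at h6
  simpa using h6

/-- free action of the inertial group on a cyclic defect group -/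
theorem mem_cen_of_fix_cyclic (hM : IsPModular p M) {y : APair (ResF M) G}
    (hy : IsAMax p y) (hcyc : IsCyclic y.1) {g : G} (hg : g ∈ stabP y) {x : G} (hx : x ∈ y.1)
    (hx1 : x ≠ 1) (hfix : g * x * g⁻¹ = x) : g ∈ Cen y.1 := by
  obtain ⟨n, hn⟩ := pow_mem_cen_of_fix_cyclic hcyc hy.1.1 (stabP_le_normalizer _ hg) hx hx1 hfix
  exact mem_cen_of_pow_mem_of_abelian M hM hy (le_cen_of_isCyclic hcyc) hg hn

end Cfsg.Agent.Lib.Helper77
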