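import Mathlib
import Cfsg.Agent.Lib.Helper77.Inertial
import Cfsg.Agent.Lib.Helper77.Local
import Cfsg.Agent.Lib.Helper35.HarrisKnorr5
import Cfsg.Agent.Lib.Helper16.Transport2

/-!
# Blocks induced inside a subgroup and Brauer pairs (helper77)
-/

set_option autoImplicit false
set_option linter.unusedSectionVars false

namespace Cfsg.Agent.Lib.Helper77

open Cfsg MonoidAlgebra Cfsg.Agent.Lib.Helper78 Cfsg.Agent.Lib.Helper85

universe u v

variable {G : Type u} [Group G] [Fintype G] (M : Ideal AlgInt) [hP : M.IsPrime]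
variable {p : ℕ} [Fact p.Prime]

/-- If `c` (a block of `C_G(P)`) induces `f` inside `H ≥ P C_G(P)` then `Br_P(e_f) e_c = e_c`. -/
theorem trunc_mul_idem_of_inducedIn (hM : IsPModular p M) {P H : Subgroup G}
    (hPp : IsPGroup p P) (hPH : P ≤ H) (hKH : Cen P ≤ H)
    {c : Set (IrrCharacter (Cen P))} {f : Set (IrrCharacter H)}
    (hind : IsInducedBlockIn M H (Cen P) c f) :
    trunc (Cen P) (idem M H f) * idem M (Cen P) c = idem M (Cen P) c := by
  classical
  have := resF_charP hM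
  have := Fintype.ofFinite H
  have := Fintype.ofFinite (Cen P)
  have hc := hind.1
  have hf := hind.2.1
  have hfix : FixedBy P (idem M H f) := ((isPrimIdem_idem M hf).mem.2).mono hPH
  have hcrit := crit M hc (subgroupBlockCoeff H f)
    (fun x _ => memLocalRing_subgroupBlockCoeff M hf x)
    (fun a ha x hx => by
      rw [subgroupBlockCoeff_of_mem H f (hKH hx),
        subgroupBlockCoeff_of_mem H f (H.mul_mem (H.mul_mem (hKH ha) (hKH hx)) (H.inv_mem (hKH ha)))]
      exact blockCoeff_isClassFunction f ⟨x, hKH hx⟩ ⟨a, hKH ha⟩)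
    (by rw [← idem_eq_redFn, ← trunc_centralizer_mul p P hPp hfix hfix, (isPrimIdem_idem M hf).idem])
  rw [← idem_eq_redFn] at hcrit
  rw [hcrit]
  intro ξ hξ
  obtain ⟨χ, hχ⟩ := IsPBlock.nonempty hP hf
  have hom : (∑ᶠ x : Cen P, subgroupBlockCoeff H f x * (ξ : Cen P → ℂ) x / (ξ : Cen P → ℂ) 1)
      = omega (ξ : Cen P → ℂ) (fun l : Cen P => blockCoeff f ⟨l, hKH l.2⟩) := by
    rw [finsum_eq_sum_of_fintype, omega, Finset.sum_div]
    refine Finset.sum_congr rfl fun x _ => ?_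
    rw [subgroupBlockCoeff_of_mem H f (hKH x.2)]
  have h1 : (1 : ℂ) = omega (χ : H → ℂ) (blockCoeff f) := by
    rw [omega_blockCoeff, if_pos hχ]
  have h2 : (fun l : Cen P => blockCoeff f ⟨l, hKH l.2⟩) =
      ∑ C : ConjClasses H, blockCoeff f (Quotient.out C) •
        (fun l : Cen P => classInd (Quotient.out C) (⟨l, hKH l.2⟩ : H)) := by
    funext l
    rw [eq_sum_classInd (blockCoeff_isClassFunction f), Finset.sum_apply]
    simp only [Pi.smul_apply, smul_eq_mul]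
    exact Finset.sum_congr (by ext; simp) (fun _ _ => rfl)
  rw [hom, h2, omega_sum, h1,
    omega_eq_sum_conjClasses (irr_isClassFunction χ) (blockCoeff_isClassFunction f),
    ← Finset.sum_sub_distrib]
  apply MemLocalIdeal.sum hP
  intro C _
  rw [omega_smul, ← mul_sub]
  apply MemLocalIdeal.mul_left hP (memLocalRing_blockCoeff hP hf _)
  rw [← Helper35.inducedCentralCharIn_eq_omega H hKH]
  exact hind.2.2 ξ hξ χ hχ _

/-- existence of the block induced inside `H` -/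
theorem exists_inducedIn (hM : IsPModular p M) {P H : Subgroup G}
    (hPp : IsPGroup p P) (hab : P ≤ Cen P) (hKH : Cen P ≤ H)
    {c : Set (IrrCharacter (Cen P))} (hc : IsPBlock M c) :
    ∃ f : Set (IrrCharacter H), IsInducedBlockIn M H (Cen P) c f := by
  classical
  have := Fintype.ofFinite H
  have := Fintype.ofFinite (Cen P)
  have := Fintype.ofFinite ((Cen P).subgroupOf H)
  have hmax : M.IsMaximal := hM.2.1
  have hPH : P ≤ H := hab.trans hKH
  have hc' : IsPBlock M (Helper16.downIrr hKH '' c) := Helper16.isPBlock_irrCongr _ M hc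
  obtain ⟨f, hf⟩ := Cfsg.Agent.S0919.result p M hM (P.subgroupOf H) ((Cen P).subgroupOf H)
    (hPp.comap_subtype) (fun x hx => hab hx) (by rw [cen_subgroupOf hPH])
    (by rw [cen_subgroupOf hPH]; exact Subgroup.centralizer_le_normalizer _) _ hc'
  refine ⟨f, hc, hf.2.1, fun ξ hξ χ hχ h => ?_⟩
  have h1 := hf.2.2 (Helper16.downIrr hKH ξ) ⟨ξ, hξ, rfl⟩ χ hχ h
  have h2 : inducedCentralChar ((Cen P).subgroupOf H)
      (Helper16.downIrr hKH ξ : (Cen P).subgroupOf H → ℂ) h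
      = inducedCentralCharIn H (Cen P) (ξ : Cen P → ℂ) (h : G) := by
    rw [Helper35.inducedCentralCharIn_eq_omega H hKH, Helper16.inducedCentralChar_eq_omega,
      ← Helper16.omega_comp_equiv (Subgroup.subgroupOfEquivOfLe hKH)]
    rfl
  rwa [h2] at h1

/-- the pair `(Q, f)` lies below `(P, c)` when `c` induces `f` inside `C_G(Q)` -/
theorem aNormal_of_inducedIn (hM : IsPModular p M) {P Q : Subgroup G}
    (hPp : IsPGroup p P) (hab : P ≤ Cen P) (hQP : Q ≤ P)
    {c : Set (IrrCharacter (Cen P))} {f : Set (IrrCharacter (Cen Q))}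
    (hind : IsInducedBlockIn M (Cen Q) (Cen P) c f) :
    ANormal p (toA M ⟨Q, f⟩) (toA M ⟨P, c⟩) := by
  have hPQ : P ≤ Cen Q := hab.trans (cen_anti hQP)
  exact ⟨isAPair_toA M ⟨hPp.to_le hQP, hind.2.1⟩, isAPair_toA M ⟨hPp, hind.1⟩, hQP,
    hPQ.trans (Subgroup.centralizer_le_normalizer _),
    ((isPrimIdem_idem M hind.2.1).mem.2).mono hPQ,
    trunc_mul_idem_of_inducedIn M hM hPp hPQ (cen_anti hQP) hind⟩

theorem mem_cen_of_conj_mem_cen {R : Subgroup G} {g t : G}
    (h : t * g * t⁻¹ ∈ Cen (R.map (MulAut.conj t).toMonoidHom)) : g ∈ Cen R := by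
  show g ∈ Subgroup.centralizer _
  rw [Subgroup.mem_centralizer_iff]
  intro v hv
  have h1 : t * v * t⁻¹ ∈ R.map (MulAut.conj t).toMonoidHom := ⟨v, hv, rfl⟩
  have h2 := (Subgroup.mem_centralizer_iff.1 h) _ h1
  have h3 : t * (v * g) * t⁻¹ = t * (g * v) * t⁻¹ := by
    calc t * (v * g) * t⁻¹ = t * v * t⁻¹ * (t * g * t⁻¹) := by group
      _ = t * g * t⁻¹ * (t * v * t⁻¹) := h2
      _ = t * (g * v) * t⁻¹ := by group
  exact mul_left_cancel (mul_right_cancel h3)

/-- free action of the inertial group on an abelian defect group: the local blocks at nontrivial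
subgroups are nilpotent (even: all stabilizers are centralizers) -/
theorem isANil_of_free (hM : IsPModular p M) {B : Set (IrrCharacter G)} (hB : IsPBlock M B)
    {y : APair (ResF M) G} (hy : IsAMax p y) (hyb : IsABlockOf (ebar M B) y)
    (hab : y.1 ≤ Cen y.1)
    (hfree : ∀ g ∈ stabP y, ∀ x ∈ y.1, x ≠ 1 → g * x * g⁻¹ = x → g ∈ Cen y.1)
    {Q : Subgroup G} (hQ1 : Q ≠ ⊥) {f : Set (IrrCharacter (Cen Q))}
    (hQf : IsBrauerPair p M Q f) (hle : ALE p (toA M ⟨Q, f⟩) y) : IsANil p (ebar M f) := by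
  have := resF_charP hM
  have hdec := hasBlockDecomp (G := G) M
  have hCN : Cen Q ≤ Subgroup.normalizer (Q : Set G) := Subgroup.centralizer_le_normalizer _
  intro z hz hzb g hg _
  have hn := aNormal_embQ_cen M hM hQf hz hzb
  have hxb := (isABlockOf_iff_of_le hdec hle).2 hyb
  have hzb' := (isABlockOf_iff_of_normal hdec hn).1 hxb
  have hg' : (g : G) ∈ stabP (embQ Q (Cen Q) z) := by
    rw [mem_stabP, ← embQ_cjP hCN, mem_stabP.1 hg]
  obtain ⟨t, ht⟩ := exists_cjP_ALE M hM hB hy hyb hn.2.1 hzb'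
  obtain ⟨u, hu, c', hc', heq⟩ := stab_factor_of_abelian M hM hB hy hyb ht hab
    (conj_mem_stabP hg' t)
  obtain ⟨q, hq, hq1⟩ : ∃ q : G, q ∈ Q ∧ q ≠ 1 := by
    obtain ⟨q, hq⟩ := Subgroup.ne_bot_iff_exists_ne_one.1 hQ1
    exact ⟨q.1, q.2, fun h => hq (Subtype.ext h)⟩
  have hxm : t * q * t⁻¹ ∈ (cjP t (embQ Q (Cen Q) z)).1 :=
    ⟨q, (le_sup_left : Q ≤ Q ⊔ _) hq, rfl⟩
  have hx1 : t * q * t⁻¹ ≠ 1 := by
    intro h
    apply hq1
    have : q = t⁻¹ * (t * q * t⁻¹) * t := by group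
    rw [this, h]; group
  have hgq : (g : G) * q = q * g := ((Subgroup.mem_centralizer_iff.1 g.2) q hq).symm
  have hcq := (Subgroup.mem_centralizer_iff.1 hc') _ hxm
  have hufix : u * (t * q * t⁻¹) * u⁻¹ = t * q * t⁻¹ := by
    have hu' : u = t * g * t⁻¹ * c'⁻¹ := by rw [heq]; group
    have h1 : c'⁻¹ * (t * q * t⁻¹) * c' = t * q * t⁻¹ := by
      rw [mul_assoc, hcq]; group
    calc u * (t * q * t⁻¹) * u⁻¹
        = t * g * t⁻¹ * (c'⁻¹ * (t * q * t⁻¹) * c') * (t * g * t⁻¹)⁻¹ := by rw [hu']; group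
      _ = t * ((g : G) * q) * (g : G)⁻¹ * t⁻¹ := by rw [h1]; group
      _ = t * q * t⁻¹ := by rw [hgq]; group
  have hucen := hfree u hu _ (ht.le hxm) hx1 hufix
  have h0 : t * g * t⁻¹ ∈ Cen (cjP t (embQ Q (Cen Q) z)).1 := by
    rw [heq]
    exact Subgroup.mul_mem _ (cen_anti ht.le hucen) hc'
  have h1 : (g : G) ∈ Cen (embQ Q (Cen Q) z).1 := mem_cen_of_conj_mem_cen h0
  have h2 : (g : G) ∈ (Cen z.1).map (Cen Q).subtype := by
    rw [goodP_cen Q z.1]; exact h1
  obtain ⟨h, hh, hhg⟩ := h2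
  have : h = g := Subtype.ext hhg
  rwa [this] at hh

theorem mem_stabP_resP {k : Type v} [CommRing k] {H : Subgroup G} {y : APair k G}
    (hs : SuppIn H y.2) {h : H} (hh : (h : G) ∈ stabP y) :
    h ∈ stabP ((y.1.subgroupOf H, res H y.2) : APair k H) := by
  unfold stabP at hh ⊢
  rw [Subgroup.mem_inf, mem_stabSub] at hh ⊢
  refine ⟨?_, ?_⟩
  · rw [Subgroup.mem_normalizer_iff]
    intro v
    exact (Subgroup.mem_normalizer_iff.1 hh.1 (v : G))
  · apply emb_injective H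
    rw [← cj_emb, exists_emb_eq_of_suppIn hs]
    exact hh.2

/-- if the local block at `Q` is nilpotent, the inertial group meets `C_G(Q)` in `C_G(P)` -/
theorem mem_cen_of_isANil_local (hM : IsPModular p M) {y : APair (ResF M) G} (hy : IsAMax p y)
    (hab : y.1 ≤ Cen y.1) {Q : Subgroup G} {f : Set (IrrCharacter (Cen Q))}
    (hf : IsPBlock M f) (hn : ANormal p (toA M ⟨Q, f⟩) y) (hnil : IsANil p (ebar M f))
    {g : G} (hg : g ∈ stabP y) (hgQ : g ∈ Cen Q) : g ∈ Cen y.1 := by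
  have hQP : Q ≤ y.1 := hn.le
  have hCN : Cen Q ≤ Subgroup.normalizer (Q : Set G) := Subgroup.centralizer_le_normalizer _
  have hyH : y.1 ≤ Cen Q := hab.trans (cen_anti hQP)
  have hs : SuppIn (Cen Q) y.2 := hy.1.2.mem.1.mono (cen_anti hQP)
  set z : APair (ResF M) (Cen Q) := (y.1.subgroupOf (Cen Q), res (Cen Q) y.2) with hzdef
  have hemb : embQ Q (Cen Q) z = y := embQ_resP hQP hyH hs
  have hz : IsAPair p z := (isAPair_embQ hn.1.1 hCN (goodP_cen Q z.1)).1 (hemb ▸ hy.1)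
  have hzb : IsABlockOf (ebar M f) z :=
    (isABlockOf_embQ_iff M hf (goodP_cen Q z.1)).2 (by rw [hemb]; exact hn.2.2.2.2.2)
  obtain ⟨a, ha⟩ := exists_pow_isPRegular (p := p) g
  have h1 : ((⟨g, hgQ⟩ : Cen Q) ^ p ^ a) ∈ stabP z :=
    mem_stabP_resP hs (by
      rw [Subgroup.coe_pow]
      exact Subgroup.pow_mem _ hg _)
  have hreg : IsPRegular p ((⟨g, hgQ⟩ : Cen Q) ^ p ^ a) := by
    unfold IsPRegular at ha ⊢
    rw [← Subgroup.orderOf_coe, Subgroup.coe_pow]
    exact ha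
  have h2 := hnil z hz hzb _ h1 hreg
  refine mem_cen_of_pow_mem_of_abelian M hM hy hab hg (a := a) ?_
  show _ ∈ Subgroup.centralizer _
  rw [Subgroup.mem_centralizer_iff]
  intro v hv
  have h3 := (Subgroup.mem_centralizer_iff.1 h2) (⟨v, hyH hv⟩ : Cen Q) hv
  simpa using congrArg Subtype.val h3

end Cfsg.Agent.Lib.Helper77
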