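import Mathlib
import Cfsg.Agent.S4669
import Cfsg.Agent.Lib.Helper77.Count
import Cfsg.Agent.Lib.Helper77.IndIn

/-!
# Nilpotent blocks with abelian defect groups have one Brauer character (helper77)
-/

set_option autoImplicit false
set_option linter.unusedSectionVars false

namespace Cfsg.Agent.Lib.Helper77

open Cfsg MonoidAlgebra Cfsg.Agent.Lib.Helper78 Cfsg.Agent.Lib.Helper85

universe u v

variable {G : Type u} [Group G] [Fintype G] (M : Ideal AlgInt) [hP : M.IsPrime]
variable {p : ℕ} [Fact p.Prime]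

theorem cen_bot : Cen (⊥ : Subgroup G) = ⊤ := by
  rw [eq_top_iff]
  intro g _
  show g ∈ Subgroup.centralizer _
  rw [Subgroup.mem_centralizer_iff]
  intro h hh
  have : h = 1 := hh
  rw [this]; simp

theorem cen_zpowers (x : G) : Cen (Subgroup.zpowers x) = Subgroup.centralizer ({x} : Set G) := by
  show Subgroup.centralizer _ = _
  rw [Subgroup.zpowers_eq_closure, Subgroup.centralizer_closure]

/-- every block has a maximal Brauer pair -/
theorem exists_isAMax_block (hM : IsPModular p M) {B : Set (IrrCharacter G)} (hB : IsPBlock M B) :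
    ∃ y : APair (ResF M) G, IsAMax p y ∧ IsABlockOf (ebar M B) y := by
  have := resF_charP hM
  have hdec := hasBlockDecomp (G := G) M
  have hprim := isPrimIdem_ebar M hB
  have h0 : IsAPair p (((⊥ : Subgroup G), ebar M B) : APair (ResF M) G) := by
    refine ⟨IsPGroup.of_bot, ?_⟩
    show IsPrimIdem (Cen ⊥) _
    rw [cen_bot]; exact hprim
  have h0b : IsABlockOf (ebar M B) (((⊥ : Subgroup G), ebar M B) : APair (ResF M) G) := by
    refine ⟨hprim, ?_⟩
    show trunc (Cen ⊥) (ebar M B) * ebar M B = ebar M B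
    rw [cen_bot, trunc_of_suppIn hprim.mem.1, hprim.idem]
  obtain ⟨y, hle, hy⟩ := exists_isAMax h0
  exact ⟨y, hy, (isABlockOf_iff_of_le hdec hle).1 h0b⟩

/-- **Abelian defect groups**: fusion of Brauer pairs is controlled by `N_G(P, e)`. -/
theorem fusion_factor_of_abelian (hM : IsPModular p M) {B : Set (IrrCharacter G)}
    (hB : IsPBlock M B) {x y : APair (ResF M) G} (hy : IsAMax p y)
    (hyb : IsABlockOf (ebar M B) y) (h : ALE p x y) (hab : y.1 ≤ Cen y.1) {t : G}
    (ht : ALE p (cjP t x) y) : ∃ u ∈ stabP y, ∃ c ∈ Cen (cjP t x).1, t = c * u := by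
  have := resF_charP hM
  have hdec := hasBlockDecomp (G := G) M
  have hx2P : IsAPair p (cjP t x) := ht.isAPair_left hy.1
  have hPC : y.1 ≤ Cen x.1 := hab.trans (cen_anti h.le)
  have hPC2 : y.1 ≤ Cen (cjP t x).1 := hab.trans (cen_anti ht.le)
  have hCN : Cen x.1 ≤ Subgroup.normalizer (x.1 : Set G) := Subgroup.centralizer_le_normalizer _
  have hCN2 : Cen (cjP t x).1 ≤ Subgroup.normalizer ((cjP t x).1 : Set G) :=
    Subgroup.centralizer_le_normalizer _
  have hn : ANormal p x y := h.toANormal hdec hy.1 (hPC.trans hCN)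
  have hn2 : ANormal p (cjP t x) y := ht.toANormal hdec hy.1 (hPC2.trans hCN2)
  have hn' : ANormal p (cjP t x) (cjP t y) := hn.cjP t
  have hzH : (cjP t y).1 ≤ Cen (cjP t x).1 := map_conj_le_cen hPC t
  have hdef := isDef_of_normal_isAMax M hM hB hy hyb hn2 hPC2 (cen_le_stabP hx2P)
  obtain ⟨c₀, hc₀, hle⟩ := rel_conj' M hM hx2P (ht.le.trans hPC2) le_rfl hCN2 hx2P.2.mem.2 hn' hn2
    hzH hdef
  rw [cjP_cjP] at hle
  have h1 : (cjP (c₀ * t) y).1 = y.1 :=
    Subgroup.eq_of_le_of_card_ge hle.le (by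
      show Nat.card y.1 ≤ Nat.card (y.1.map (MulAut.conj (c₀ * t)).toMonoidHom)
      rw [card_map_conj])
  have h2 : cjP (c₀ * t) y = y :=
    ALE.eq_of_fst_eq hdec hy.1 hle Relation.ReflTransGen.refl h1
  exact ⟨c₀ * t, mem_stabP.2 h2, c₀⁻¹, Subgroup.inv_mem _ hc₀, by group⟩

theorem map_conj_zpowers (t v : G) :
    (Subgroup.zpowers v).map (MulAut.conj t).toMonoidHom = Subgroup.zpowers (t * v * t⁻¹) := by
  rw [MonoidHom.map_zpowers]
  rfl

/-- distinct elements of an abelian defect group of a nilpotent block give non-conjugate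
subsections -/
theorem eq_of_conj_subsection (hM : IsPModular p M) {B : Set (IrrCharacter G)}
    (hB : IsPBlock M B) {y : APair (ResF M) G} (hy : IsAMax p y)
    (hyb : IsABlockOf (ebar M B) y) (hab : y.1 ≤ Cen y.1) (hst : stabP y ≤ Cen y.1)
    {v w : G} (hv : v ∈ y.1) {f f' : MonoidAlgebra (ResF M) G}
    (hf : ALE p ((Subgroup.zpowers v, f) : APair (ResF M) G) y)
    (hf' : ALE p ((Subgroup.zpowers w, f') : APair (ResF M) G) y) {t : G}
    (htv : t * v * t⁻¹ = w) (htf : cj t f = f') : v = w := by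
  have h1 : cjP t ((Subgroup.zpowers v, f) : APair (ResF M) G) = (Subgroup.zpowers w, f') := by
    refine Prod.ext ?_ htf
    show (Subgroup.zpowers v).map _ = _
    rw [map_conj_zpowers, htv]
  obtain ⟨u, hu, c, hc, rfl⟩ := fusion_factor_of_abelian M hM hB hy hyb hf hab (t := t)
    (by rw [h1]; exact hf')
  rw [h1] at hc
  have hu' := (Subgroup.mem_centralizer_iff.1 (hst hu)) v hv
  have hc' := (Subgroup.mem_centralizer_iff.1 hc) w (Subgroup.mem_zpowers w)
  have h2 : c * v * c⁻¹ = w := by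
    rw [← htv]
    calc c * v * c⁻¹ = c * (v * u) * u⁻¹ * c⁻¹ := by group
      _ = c * (u * v) * u⁻¹ * c⁻¹ := by rw [hu']
      _ = c * u * v * (c * u)⁻¹ := by group
  calc v = c⁻¹ * (c * v * c⁻¹) * c := by group
    _ = c⁻¹ * (w * c) := by rw [h2]; group
    _ = c⁻¹ * (c * w) := by rw [hc']
    _ = w := by group

/-- the conjugate of a subsection below `y`, as a block of a centralizer inducing `B` -/
theorem exists_block_of_conj (hM : IsPModular p M) {B : Set (IrrCharacter G)}
    (hB : IsPBlock M B) {y : APair (ResF M) G} (hy : IsAMax p y)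
    (hyb : IsABlockOf (ebar M B) y) {v : G} {f : MonoidAlgebra (ResF M) G}
    (hf : ALE p ((Subgroup.zpowers v, f) : APair (ResF M) G) y) {g x : G}
    (hg : g * v * g⁻¹ = x) :
    ∃ b : Set (IrrCharacter (Subgroup.centralizer ({x} : Set G))),
      IsInducedBlock M (Subgroup.centralizer ({x} : Set G)) b B ∧
      idem M (Subgroup.centralizer ({x} : Set G)) b = cj g f := by
  have := resF_charP hM
  have hdec := hasBlockDecomp (G := G) M
  have h1 : cjP g ((Subgroup.zpowers v, f) : APair (ResF M) G) = (Subgroup.zpowers x, cj g f) := by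
    refine Prod.ext ?_ rfl
    show (Subgroup.zpowers v).map _ = _
    rw [map_conj_zpowers, hg]
  have hpair : IsAPair p ((Subgroup.zpowers x, cj g f) : APair (ResF M) G) := by
    rw [← h1]; exact (hf.isAPair_left hy.1).cjP g
  have hblk : IsABlockOf (ebar M B) ((Subgroup.zpowers x, cj g f) : APair (ResF M) G) := by
    rw [← h1]; exact ((isABlockOf_iff_of_le hdec hf).2 hyb).cjP g
  have hprim : IsPrimIdem (Subgroup.centralizer ({x} : Set G)) (cj g f) := by
    rw [← cen_zpowers]; exact hpair.2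
  obtain ⟨b, hb, hbe⟩ := (isPrimIdem_iff M).1 hprim
  refine ⟨b, ?_, hbe.symm⟩
  have hle : Subgroup.zpowers x ≤ Subgroup.centralizer ({x} : Set G) := by
    rw [Subgroup.zpowers_le, Subgroup.mem_centralizer_singleton_iff]
  refine (isInducedBlock_iff_trunc M hM hpair.1 hle (cen_zpowers x).le ?_ hb hB).2 ?_
  · rw [← cen_zpowers]; exact Subgroup.centralizer_le_normalizer _
  · rw [← hbe]; exact hblk.2

theorem exists_orderOf_eq_of_mem {Q : Subgroup G} (hQ : IsPGroup p Q) {v : G} (hv : v ∈ Q) :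
    ∃ k : ℕ, orderOf v = p ^ k := by
  obtain ⟨i, hi⟩ := hQ ⟨v, hv⟩
  have hi' : v ^ p ^ i = 1 := by simpa using congrArg Subtype.val hi
  obtain ⟨j, -, hj⟩ := (Nat.dvd_prime_pow (Fact.out : p.Prime)).1 (orderOf_dvd_of_pow_eq_one hi')
  exact ⟨j, hj⟩

/-- **Lower bound**: `k(B) ≥ l(B) + |P| - 1` for a nilpotent block with abelian defect group. -/
theorem card_ge_of_nil_abelian (hM : IsPModular p M) {B : Set (IrrCharacter G)}
    (hB : IsPBlock M B) {y : APair (ResF M) G} (hy : IsAMax p y)
    (hyb : IsABlockOf (ebar M B) y) (hab : y.1 ≤ Cen y.1) (hst : stabP y ≤ Cen y.1) :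
    blockRank p B + Nat.card y.1 ≤ Nat.card B + 1 := by
  classical
  have := resF_charP hM
  have hdec := hasBlockDecomp (G := G) M
  obtain ⟨X, r, hX, hXrep, hr, hrX, hr1⟩ := Helper77b.exists_pElement_reps p G
  have key := Cfsg.Agent.S4511.result p M hM B hB X hX hXrep
  set t : G → ℕ := fun x => ∑ᶠ b ∈ {b : Set (IrrCharacter (Subgroup.centralizer ({x} : Set G))) |
    IsInducedBlock M (Subgroup.centralizer ({x} : Set G)) b B}, blockRank p b with ht
  set PF : Finset G := Finset.univ.filter (· ∈ y.1) with hPFdef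
  have hPF : PF.card = Nat.card y.1 := by
    rw [Nat.card_eq_fintype_card, Fintype.card_subtype]
  have hmemPF : ∀ {v : G}, v ∈ PF ↔ v ∈ y.1 := by
    intro v; simp [hPFdef]
  have hfib : PF.card = ∑ x ∈ X, (PF.filter (fun v => r v = x)).card :=
    Finset.card_eq_sum_card_fiberwise
      (fun v hv => hrX v (exists_orderOf_eq_of_mem hy.1.1 (hmemPF.1 hv)))
  have hbound : ∀ x ∈ X, (PF.filter (fun v => r v = x)).card ≤ t x := by
    intro x _
    have hex : ∀ v ∈ PF.filter (fun v => r v = x),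
        ∃ b : Set (IrrCharacter (Subgroup.centralizer ({x} : Set G))),
          IsInducedBlock M (Subgroup.centralizer ({x} : Set G)) b B ∧
          ∃ (g : G) (f : MonoidAlgebra (ResF M) G), g * v * g⁻¹ = x ∧
            ALE p ((Subgroup.zpowers v, f) : APair (ResF M) G) y ∧
            idem M (Subgroup.centralizer ({x} : Set G)) b = cj g f := by
      intro v hv
      rw [Finset.mem_filter] at hv
      have hvy := hmemPF.1 hv.1
      obtain ⟨g, hg⟩ := _root_.isConj_iff.1 (hv.2 ▸ hr v)
      obtain ⟨f, hf⟩ := exists_ALE' hdec hy.1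
        (show Subgroup.zpowers v ≤ y.1 by rw [Subgroup.zpowers_le]; exact hvy)
      obtain ⟨b, hb1, hb2⟩ := exists_block_of_conj M hM hB hy hyb hf hg
      exact ⟨b, hb1, g, f, hg, hf, hb2⟩
    choose! φ hφ using hex
    have hS : {b : Set (IrrCharacter (Subgroup.centralizer ({x} : Set G))) |
      IsInducedBlock M (Subgroup.centralizer ({x} : Set G)) b B}.Finite := Set.toFinite _
    have h1 : (PF.filter (fun v => r v = x)).card ≤ hS.toFinset.card := by
      refine Finset.card_le_card_of_injOn φ (fun v hv => ?_) ?_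
      · simpa using (hφ v hv).1
      · intro v hv w hw hvw
        obtain ⟨-, g, f, hg, hf, hb⟩ := hφ v hv
        obtain ⟨-, g', f', hg', hf', hb'⟩ := hφ w hw
        have hvy := hmemPF.1 (Finset.mem_filter.1 hv).1
        refine eq_of_conj_subsection M hM hB hy hyb hab hst hvy hf hf' (t := g'⁻¹ * g) ?_ ?_
        · calc g'⁻¹ * g * v * (g'⁻¹ * g)⁻¹ = g'⁻¹ * (g * v * g⁻¹) * g' := by group
            _ = g'⁻¹ * (g' * w * g'⁻¹) * g' := by rw [hg, hg']
            _ = w := by group
        · rw [cj_mul_apply, ← hb, hvw, hb', cj_inv_cj]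
    refine h1.trans ?_
    rw [ht]
    simp only
    rw [finsum_mem_eq_finite_toFinset_sum _ hS, Finset.card_eq_sum_ones]
    refine Finset.sum_le_sum fun b hb => ?_
    have hb' : IsInducedBlock M (Subgroup.centralizer ({x} : Set G)) b B := by simpa using hb
    exact Helper77b.blockRank_pos' (IsPBlock.nonempty hP hb'.1)
  have h1X : (1 : G) ∈ X := by
    have := hrX 1 ⟨0, by simp⟩
    rwa [hr1] at this
  have ht1 : t 1 = blockRank p B := Helper77b.sum_rank_one hM hB
  have hP1 : (PF.filter (fun v => r v = 1)).card = 1 := by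
    rw [Finset.card_eq_one]
    refine ⟨1, ?_⟩
    ext v
    rw [Finset.mem_filter, Finset.mem_singleton]
    constructor
    · rintro ⟨-, hv⟩
      have := hr v
      rw [hv] at this
      exact isConj_one_right.1 this.symm
    · rintro rfl
      exact ⟨hmemPF.2 (Subgroup.one_mem _), hr1⟩
  rw [← hPF, hfib, key, ← Finset.add_sum_erase X _ h1X, ← Finset.add_sum_erase X t h1X, hP1, ht1]
  have h2 : ∑ x ∈ X.erase 1, (PF.filter (fun v => r v = x)).card ≤ ∑ x ∈ X.erase 1, t x :=
    Finset.sum_le_sum fun x hx => hbound x (Finset.mem_of_mem_erase hx)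
  omega

/-- commutativity of the first components of Brauer pairs passes to the local blocks -/
theorem abel_cen (hM : IsPModular p M) {b : MonoidAlgebra (ResF M) G}
    (habel : ∀ z : APair (ResF M) G, IsAPair p z → IsABlockOf b z → z.1 ≤ Cen z.1)
    {Q : Subgroup G} {f : Set (IrrCharacter (Cen Q))} (hQf : IsBrauerPair p M Q f)
    (hxb : IsABlockOf b (toA M ⟨Q, f⟩)) :
    ∀ z : APair (ResF M) (Cen Q), IsAPair p z → IsABlockOf (ebar M f) z → z.1 ≤ Cen z.1 := by
  have := resF_charP hM
  have hdec := hasBlockDecomp (G := G) M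
  intro z hz hzb a ha
  have hn := aNormal_embQ_cen M hM hQf hz hzb
  have hzb' := (isABlockOf_iff_of_normal hdec hn).1 hxb
  have h1 := habel _ hn.2.1 hzb'
  show a ∈ Subgroup.centralizer _
  rw [Subgroup.mem_centralizer_iff]
  intro c hc
  have ha' : (a : G) ∈ (embQ Q (Cen Q) z).1 :=
    (le_sup_right : z.1.map (Cen Q).subtype ≤ Q ⊔ z.1.map (Cen Q).subtype) ⟨a, ha, rfl⟩
  have hc' : (c : G) ∈ (embQ Q (Cen Q) z).1 :=
    (le_sup_right : z.1.map (Cen Q).subtype ≤ Q ⊔ z.1.map (Cen Q).subtype) ⟨c, hc, rfl⟩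
  exact Subtype.ext ((Subgroup.mem_centralizer_iff.1 (h1 ha')) c hc')

theorem local_hyps (hM : IsPModular p M) {B : Set (IrrCharacter G)} {Q H : Subgroup G}
    (hH : H = Cen Q) (hQ : IsPGroup p Q) {b : Set (IrrCharacter H)} (hb : IsPBlock M b)
    (hxb : IsABlockOf (ebar M B) ((Q, idem M H b) : APair (ResF M) G))
    (hnil : IsANil p (ebar M B))
    (habel : ∀ z : APair (ResF M) G, IsAPair p z → IsABlockOf (ebar M B) z → z.1 ≤ Cen z.1) :
    IsANil p (ebar M b) ∧
      ∀ z : APair (ResF M) H, IsAPair p z → IsABlockOf (ebar M b) z → z.1 ≤ Cen z.1 := by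
  subst hH
  exact ⟨isANil_cen M hM hnil ⟨hQ, hb⟩ hxb, abel_cen M hM habel ⟨hQ, hb⟩ hxb⟩

end Cfsg.Agent.Lib.Helper77

namespace Cfsg.Agent.Lib.Helper77

open Cfsg MonoidAlgebra Cfsg.Agent.Lib.Helper78 Cfsg.Agent.Lib.Helper85

universe u

/-- **Nilpotent blocks with abelian defect groups**: `l(B) = 1` and `k(B) = |P|`. -/
theorem nil_abel_aux (M : Ideal AlgInt) [hP : M.IsPrime] {p : ℕ} [Fact p.Prime]
    (hM : IsPModular p M) :
    ∀ (n : ℕ) (G : Type u) [Group G] [Fintype G] (B : Set (IrrCharacter G)), Nat.card G = n →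
      IsPBlock M B → IsANil p (ebar M B) →
      (∀ z : APair (ResF M) G, IsAPair p z → IsABlockOf (ebar M B) z → z.1 ≤ Cen z.1) →
      blockRank p B = 1 ∧ Nat.card B = p ^ blockDefect p B := by
  intro n
  induction n using Nat.strong_induction_on with
  | _ n ih =>
  intro G _ _ B hn hB hnil habel
  have := resF_charP hM
  have hdec := hasBlockDecomp (G := G) M
  have hp : p.Prime := Fact.out
  obtain ⟨y, hy, hyb⟩ := exists_isAMax_block M hM hB
  have hab := habel y hy.1 hyb
  have hst := (isANil_iff_of_abelian M hM hB hy hyb hab).1 hnil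
  have hD := isDefectGroup_of_isAMax M hM hB hy hyb
  have hcard := card_of_isDefectGroup hM hB hD
  have hlow := card_ge_of_nil_abelian M hM hB hy hyb hab hst
  have hpos : 0 < blockRank p B := Helper77b.blockRank_pos' (IsPBlock.nonempty hP hB)
  by_cases hZ : y.1 ≤ Subgroup.center G
  · have h1 := Cfsg.Agent.S4669.result p M hM B hB y.1 hD hZ
    have h2 := card_eq_card_mul_blockRank hM hB hD hZ
    exact ⟨h1, by rw [h2, h1, mul_one, hcard]⟩
  · obtain ⟨u, hu, huZ⟩ := SetLike.not_le_iff_exists.1 hZ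
    have huy : Subgroup.zpowers u ≤ y.1 := by rw [Subgroup.zpowers_le]; exact hu
    obtain ⟨f, hf⟩ := exists_ALE' hdec hy.1 huy
    obtain ⟨b, hbind, hbe⟩ := exists_block_of_conj M hM hB hy hyb hf (g := 1) (x := u) (by group)
    rw [cj_one_apply] at hbe
    have hHne : Subgroup.centralizer ({u} : Set G) ≠ ⊤ := by
      intro h
      apply huZ
      rw [Subgroup.mem_center_iff]
      intro g
      have hg : g ∈ Subgroup.centralizer ({u} : Set G) := by rw [h]; trivial
      exact Subgroup.mem_centralizer_singleton_iff.1 hg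
    have hHlt : Nat.card (Subgroup.centralizer ({u} : Set G)) < n := by
      have := card_lt_of_le_of_ne le_top hHne
      rwa [Subgroup.card_top, hn] at this
    have hxb : IsABlockOf (ebar M B)
        ((Subgroup.zpowers u, idem M (Subgroup.centralizer ({u} : Set G)) b) :
          APair (ResF M) G) := by
      rw [hbe]; exact (isABlockOf_iff_of_le hdec hf).2 hyb
    obtain ⟨hnil', habel'⟩ := local_hyps M hM (cen_zpowers u).symm (hy.1.1.to_le huy) hbind.1 hxb
      hnil habel
    have hfin := Fintype.ofFinite (Subgroup.centralizer ({u} : Set G))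
    obtain ⟨hl, -⟩ := ih _ hHlt (Subgroup.centralizer ({u} : Set G)) b rfl hbind.1 hnil' habel'
    have hPC : y.1 ≤ Cen (Subgroup.zpowers u) := hab.trans (cen_anti huy)
    have hPH : y.1 ≤ Subgroup.centralizer ({u} : Set G) := by rw [← cen_zpowers]; exact hPC
    have hn_u : ANormal p ((Subgroup.zpowers u, f) : APair (ResF M) G) y :=
      hf.toANormal hdec hy.1 (hPC.trans (Subgroup.centralizer_le_normalizer _))
    have hdef : IsDef p (Subgroup.centralizer ({u} : Set G)) f y.1 :=
      isDef_of_normal_isAMax M hM hB hy hyb hn_u hPH (by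
        rw [← cen_zpowers]; exact cen_le_stabP hn_u.1)
    have hDb : IsDefectGroup p M b (y.1.subgroupOf (Subgroup.centralizer ({u} : Set G))) :=
      (isDefectGroup_subgroupOf_iff M hM hbind.1 hPH).2 (by rw [hbe]; exact hdef)
    have hmaj : blockDefect p b = blockDefect p B := by
      have h1 := card_of_isDefectGroup hM hbind.1 hDb
      rw [card_subgroupOf_of_le hPH, hcard] at h1
      exact (Nat.pow_right_injective hp.two_le h1).symm
    have hup := Helper77b.card_le_of_major_rank_one hM u (exists_orderOf_eq_of_mem hy.1.1 hu)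
      hbind hmaj hl
    rw [← hcard] at hup ⊢
    constructor <;> omega

/-- all Brauer pairs of a block with abelian defect groups have abelian first component -/
theorem abel_of_isDefectGroup (M : Ideal AlgInt) [hP : M.IsPrime] {p : ℕ} [Fact p.Prime]
    (hM : IsPModular p M) {G : Type u} [Group G] [Fintype G] {B : Set (IrrCharacter G)}
    (hB : IsPBlock M B) {P : Subgroup G} (hD : IsDefectGroup p M B P) (hab : P ≤ Cen P) :
    ∀ z : APair (ResF M) G, IsAPair p z → IsABlockOf (ebar M B) z → z.1 ≤ Cen z.1 := by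
  have := resF_charP hM
  have hdec := hasBlockDecomp (G := G) M
  intro z hz hzb
  obtain ⟨w, hzw, hw⟩ := exists_isAMax hz
  have hwb := (isABlockOf_iff_of_le hdec hzw).1 hzb
  have hwD := isDefectGroup_of_isAMax M hM hB hw hwb
  obtain ⟨x, hx⟩ := Helper16.IsDefectGroup.exists_conj_eq hM hB hD hwD
  intro a ha
  show a ∈ Subgroup.centralizer _
  rw [Subgroup.mem_centralizer_iff]
  intro c hc
  have ha' : a ∈ Helper16.cj x P := hx ▸ hzw.le ha
  have hc' : c ∈ Helper16.cj x P := hx ▸ hzw.le hc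
  rw [Helper16.mem_cj] at ha' hc'
  have h1 := (Subgroup.mem_centralizer_iff.1 (hab ha')) _ hc'
  have h2 : x⁻¹ * (c * a) * x = x⁻¹ * (a * c) * x := by
    calc x⁻¹ * (c * a) * x = (x⁻¹ * c * x) * (x⁻¹ * a * x) := by group
      _ = (x⁻¹ * a * x) * (x⁻¹ * c * x) := h1
      _ = x⁻¹ * (a * c) * x := by group
  exact mul_left_cancel (mul_right_cancel h2)

/-- **Nilpotent blocks with abelian defect group `P`**: `l(B) = 1` and `k(B) = |P|`. -/
theorem blockRank_eq_one_of_nil_abelian (M : Ideal AlgInt) [hP : M.IsPrime] {p : ℕ}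
    [Fact p.Prime] (hM : IsPModular p M) {G : Type u} [Group G] [Fintype G]
    {B : Set (IrrCharacter G)} (hB : IsPBlock M B) {P : Subgroup G}
    (hD : IsDefectGroup p M B P) (hab : P ≤ Cen P) (hnil : IsANil p (ebar M B)) :
    blockRank p B = 1 ∧ Nat.card B = Nat.card P := by
  obtain ⟨h1, h2⟩ := nil_abel_aux M hM _ G B rfl hB hnil (abel_of_isDefectGroup M hM hB hD hab)
  exact ⟨h1, by rw [h2, card_of_isDefectGroup hM hB hD]⟩

end Cfsg.Agent.Lib.Helper77
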