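import Mathlib
import Cfsg.Agent.Lib.Helper77.NilAb

/-!
# Local structure of blocks with cyclic defect groups (helper77)
-/

set_option autoImplicit false
set_option linter.unusedSectionVars false

namespace Cfsg.Agent.Lib.Helper77

open Cfsg MonoidAlgebra Cfsg.Agent.Lib.Helper78 Cfsg.Agent.Lib.Helper85

universe u v

section grp

variable {G : Type u} [Group G]

theorem normalizer_le_normalizer_of_cyclic {P Q : Subgroup G} (hcyc : IsCyclic P) (hQP : Q ≤ P) :
    Subgroup.normalizer (P : Set G) ≤ Subgroup.normalizer (Q : Set G) := by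
  have hstep : ∀ g ∈ Subgroup.normalizer (P : Set G), ∀ h ∈ Q, g * h * g⁻¹ ∈ Q := by
    intro g hg h hh
    obtain ⟨k, hk⟩ := exists_zpow_of_normalizer_cyclic hcyc hg
    rw [hk h (hQP hh)]
    exact Q.zpow_mem hh k
  intro g hg
  rw [Subgroup.mem_normalizer_iff]
  intro h
  refine ⟨hstep g hg h, fun hh => ?_⟩
  have := hstep g⁻¹ (Subgroup.inv_mem _ hg) _ hh
  have h2 : g⁻¹ * (g * h * g⁻¹) * g⁻¹⁻¹ = h := by group
  rwa [h2] at this

theorem relIndex_sup_of_le_normalizer {H N : Subgroup G}
    (hLE : H ≤ Subgroup.normalizer (N : Set G)) : N.relIndex (H ⊔ N) = N.relIndex H := by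
  letI := Subgroup.normal_subgroupOf_of_le_normalizer hLE
  letI := Subgroup.normal_subgroupOf_sup_of_le_normalizer hLE
  exact Nat.card_congr
    (QuotientGroup.quotientInfEquivProdNormalizerQuotient H N hLE).toEquiv.symm

end grp

end Cfsg.Agent.Lib.Helper77
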