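import Mathlib
import Cfsg.Agent.Lib.Helper77.CycLocal
import Cfsg.Agent.Lib.Helper78.DimBlock

/-!
# Blocks with Klein four defect groups (helper77)
-/

set_option autoImplicit false
set_option linter.unusedSectionVars false

namespace Cfsg.Agent.Lib.Helper77

open Cfsg MonoidAlgebra Cfsg.Agent.Lib.Helper78 Cfsg.Agent.Lib.Helper85

universe u v

section grp

variable {G : Type u} [Group G]

/-- an element normalizing a four-group and fixing an involution of it acts as an involution -/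
theorem klein_sq_mem_cen {P : Subgroup G} (hV : IsKleinFour P) {g : G}
    (hg : g ∈ Subgroup.normalizer (P : Set G)) {x : G} (hx : x ∈ P) (hx1 : x ≠ 1)
    (hfix : g * x * g⁻¹ = x) : g ^ 2 ∈ Cen P := by
  show _ ∈ Subgroup.centralizer _
  rw [Subgroup.mem_centralizer_iff]
  intro y hy
  have hz : g * y * g⁻¹ ∈ P := (Subgroup.mem_normalizer_iff.1 hg y).1 hy
  have hxx : x * x = 1 := by
    simpa using congrArg Subtype.val (IsKleinFour.mul_self (⟨x, hx⟩ : P))
  have key : g * (g * y * g⁻¹) * g⁻¹ = y := by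
    by_cases hy1 : y = 1
    · subst hy1; group
    by_cases hyx : y = x
    · subst hyx; rw [hfix, hfix]
    by_cases hzy : g * y * g⁻¹ = y
    · rw [hzy, hzy]
    have hz1 : g * y * g⁻¹ ≠ 1 := by
      intro h
      apply hy1
      have : y = g⁻¹ * (g * y * g⁻¹) * g := by group
      rw [this, h]; group
    have hzx : g * y * g⁻¹ ≠ x := by
      intro h
      apply hyx
      have h2 : g * y * g⁻¹ = g * x * g⁻¹ := by rw [h, hfix]
      exact mul_left_cancel (mul_right_cancel h2)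
    have h3 : (⟨g * y * g⁻¹, hz⟩ : P) = ⟨x, hx⟩ * ⟨y, hy⟩ :=
      IsKleinFour.eq_mul_of_ne_all (fun h => hx1 (congrArg Subtype.val h))
        (fun h => hy1 (congrArg Subtype.val h)) (fun h => hyx (congrArg Subtype.val h).symm)
        (fun h => hz1 (congrArg Subtype.val h)) (fun h => hzx (congrArg Subtype.val h))
        (fun h => hzy (congrArg Subtype.val h))
    have h4 : g * y * g⁻¹ = x * y := congrArg Subtype.val h3
    calc g * (g * y * g⁻¹) * g⁻¹ = g * (x * y) * g⁻¹ := by rw [h4]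
      _ = (g * x * g⁻¹) * (g * y * g⁻¹) := by group
      _ = x * (x * y) := by rw [hfix, h4]
      _ = (x * x) * y := by group
      _ = y := by rw [hxx, one_mul]
  calc y * g ^ 2 = (g * (g * y * g⁻¹) * g⁻¹) * g ^ 2 := by rw [key]
    _ = g ^ 2 * y := by rw [sq]; group

theorem le_cen_of_isKleinFour {P : Subgroup G} (hV : IsKleinFour P) : P ≤ Cen P := by
  intro x hx
  show x ∈ Subgroup.centralizer _
  rw [Subgroup.mem_centralizer_iff]
  intro y hy
  have := (IsKleinFour.isMulCommutative (G := P)).is_comm.comm ⟨y, hy⟩ ⟨x, hx⟩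
  exact congrArg Subtype.val this

/-- the orbit map of a free action by conjugation -/
theorem exists_orbit_injective {P T : Subgroup G} (hTN : T ≤ Subgroup.normalizer (P : Set G))
    (hfree : ∀ g ∈ T, ∀ x ∈ P, x ≠ 1 → g * x * g⁻¹ = x → g ∈ Cen P) {a : G} (ha : a ∈ P)
    (ha1 : a ≠ 1) :
    ∃ f : (T ⧸ (Cen P).subgroupOf T) → {v : P // v ≠ 1}, Function.Injective f ∧
      ∀ t : T, ((f (QuotientGroup.mk t) : P) : G) = (t : G) * a * (t : G)⁻¹ := by
  have hmem : ∀ t : T, (t : G) * a * (t : G)⁻¹ ∈ P := fun t =>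
    (Subgroup.mem_normalizer_iff.1 (hTN t.2) a).1 ha
  have hne : ∀ t : T, (⟨(t : G) * a * (t : G)⁻¹, hmem t⟩ : P) ≠ 1 := by
    intro t h
    apply ha1
    have h1 : (t : G) * a * (t : G)⁻¹ = 1 := congrArg Subtype.val h
    have : a = (t : G)⁻¹ * ((t : G) * a * (t : G)⁻¹) * (t : G) := by group
    rw [this, h1]; group
  refine ⟨fun q => Quotient.liftOn' q (fun t : T => (⟨⟨(t : G) * a * (t : G)⁻¹, hmem t⟩, hne t⟩ :
    {v : P // v ≠ 1})) ?_, ?_, fun t => rfl⟩
  · intro t₁ t₂ h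
    rw [QuotientGroup.leftRel_apply] at h
    have h1 : ((t₁⁻¹ * t₂ : T) : G) ∈ Subgroup.centralizer (P : Set G) := h
    have h2 := (Subgroup.mem_centralizer_iff.1 h1) a ha
    apply Subtype.ext
    apply Subtype.ext
    show (t₁ : G) * a * (t₁ : G)⁻¹ = (t₂ : G) * a * (t₂ : G)⁻¹
    push_cast at h2
    calc (t₁ : G) * a * (t₁ : G)⁻¹
        = (t₁ : G) * (a * ((t₁ : G)⁻¹ * (t₂ : G))) * (t₂ : G)⁻¹ := by group
      _ = (t₁ : G) * ((t₁ : G)⁻¹ * (t₂ : G) * a) * (t₂ : G)⁻¹ := by rw [h2]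
      _ = (t₂ : G) * a * (t₂ : G)⁻¹ := by group
  · intro q₁ q₂
    induction q₁ using Quotient.inductionOn' with | _ t₁ => ?_
    induction q₂ using Quotient.inductionOn' with | _ t₂ => ?_
    intro h
    have h1 : (t₁ : G) * a * (t₁ : G)⁻¹ = (t₂ : G) * a * (t₂ : G)⁻¹ :=
      congrArg (fun v : {v : P // v ≠ 1} => ((v : P) : G)) h
    apply Quotient.sound'
    rw [QuotientGroup.leftRel_apply]
    show ((t₁⁻¹ * t₂ : T) : G) ∈ Cen P
    refine hfree _ (t₁⁻¹ * t₂ : T).2 a ha ha1 ?_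
    push_cast
    calc (t₁ : G)⁻¹ * (t₂ : G) * a * ((t₁ : G)⁻¹ * (t₂ : G))⁻¹
        = (t₁ : G)⁻¹ * ((t₂ : G) * a * (t₂ : G)⁻¹) * (t₁ : G) := by group
      _ = (t₁ : G)⁻¹ * ((t₁ : G) * a * (t₁ : G)⁻¹) * (t₁ : G) := by rw [h1]
      _ = a := by group

theorem card_klein_ne_one {P : Subgroup G} (hV : IsKleinFour P) :
    Nat.card {v : P // v ≠ 1} = 3 := by
  classical
  have := IsKleinFour.instFinite (G := P)
  have := Fintype.ofFinite P
  rw [Nat.card_eq_fintype_card, Fintype.card_subtype_compl, Fintype.card_subtype_eq,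
    ← Nat.card_eq_fintype_card, IsKleinFour.card_four]

/-- the inertial quotient of a four-group: order `1` or `3`, free action, transitive if `3` -/
theorem klein_index [Finite G] {P T : Subgroup G} (hV : IsKleinFour P)
    (hTN : T ≤ Subgroup.normalizer (P : Set G))
    (hodd : ∀ g ∈ T, g ^ 2 ∈ Cen P → g ∈ Cen P) :
    ((Cen P).relIndex T = 1 ∨ (Cen P).relIndex T = 3) ∧
    (∀ g ∈ T, ∀ x ∈ P, x ≠ 1 → g * x * g⁻¹ = x → g ∈ Cen P) ∧
    ((Cen P).relIndex T = 3 → ∀ a ∈ P, a ≠ 1 → ∀ v ∈ P, v ≠ 1 → ∃ t ∈ T, t * a * t⁻¹ = v) := by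
  have hfree : ∀ g ∈ T, ∀ x ∈ P, x ≠ 1 → g * x * g⁻¹ = x → g ∈ Cen P :=
    fun g hg x hx hx1 hfix => hodd g hg (klein_sq_mem_cen hV (hTN hg) hx hx1 hfix)
  have hcard3 := card_klein_ne_one hV
  have hrel : (Cen P).relIndex T = Nat.card (T ⧸ (Cen P).subgroupOf T) := rfl
  refine ⟨?_, hfree, ?_⟩
  · have hne : Nonempty {v : P // v ≠ 1} := by
      by_contra h
      rw [not_nonempty_iff] at h
      rw [Nat.card_of_isEmpty] at hcard3
      omega
    obtain ⟨⟨a, ha1⟩⟩ := hne
    obtain ⟨f, hf, -⟩ := exists_orbit_injective hTN hfree a.2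
      (fun h => ha1 (Subtype.ext h))
    have hfin : Finite {v : P // v ≠ 1} := Nat.finite_of_card_ne_zero (by omega)
    have hle : Nat.card (T ⧸ (Cen P).subgroupOf T) ≤ 3 := by
      rw [← hcard3]; exact Nat.card_le_card_of_injective f hf
    have hpos : 0 < Nat.card (T ⧸ (Cen P).subgroupOf T) := Nat.card_pos
    have hne2 : Nat.card (T ⧸ (Cen P).subgroupOf T) ≠ 2 := by
      intro h2
      have hLE : T ≤ Subgroup.normalizer ((Cen P : Subgroup G) : Set G) :=
        hTN.trans (normalizer_le_normalizer_centralizer P)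
      letI := Subgroup.normal_subgroupOf_of_le_normalizer hLE
      haveI : Fact (Nat.Prime 2) := ⟨Nat.prime_two⟩
      obtain ⟨q, hq⟩ := exists_prime_orderOf_dvd_card' (G := T ⧸ (Cen P).subgroupOf T) 2
        (by rw [h2])
      induction q using QuotientGroup.induction_on with
      | H t =>
        have h3 : ((t : T ⧸ (Cen P).subgroupOf T)) ^ 2 = 1 := by
          rw [← hq]; exact pow_orderOf_eq_one _
        rw [← QuotientGroup.mk_pow, QuotientGroup.eq_one_iff] at h3
        have h4 : ((t : G)) ^ 2 ∈ Cen P := by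
          have : ((t ^ 2 : T) : G) ∈ Cen P := h3
          simpa using this
        have h5 : t ∈ (Cen P).subgroupOf T := hodd t t.2 h4
        rw [(QuotientGroup.eq_one_iff t).2 h5, orderOf_one] at hq
        omega
    rw [hrel]
    omega
  · intro he a ha ha1 v hv hv1
    obtain ⟨f, hf, hft⟩ := exists_orbit_injective hTN hfree ha ha1
    have hfin : Finite {v : P // v ≠ 1} := Nat.finite_of_card_ne_zero (by omega)
    have hbij := hf.bijective_of_nat_card_le (by rw [hcard3, ← hrel, he])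
    obtain ⟨q, hq⟩ := hbij.2 ⟨⟨v, hv⟩, fun h => hv1 (congrArg Subtype.val h)⟩
    induction q using QuotientGroup.induction_on with
    | H t =>
      refine ⟨t, t.2, ?_⟩
      rw [← hft t, hq]

end grp

section deg

variable {G : Type u} [Group G] [Fintype G] {M : Ideal AlgInt}

theorem sq_zmod_four (r : ℕ) : ((r : ZMod 4)) ^ 2 = if Odd r then 1 else 0 := by
  rcases Nat.even_or_odd' r with ⟨j, rfl | rfl⟩
  · have h : ¬ Odd (2 * j) := by simp
    rw [if_neg h]
    push_cast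
    have : ((2 : ZMod 4) * (j : ZMod 4)) ^ 2 = 4 * (j : ZMod 4) ^ 2 := by ring
    rw [this]
    have h4 : (4 : ZMod 4) = 0 := by decide
    rw [h4, zero_mul]
  · have h : Odd (2 * j + 1) := ⟨j, rfl⟩
    rw [if_pos h]
    push_cast
    have : ((2 : ZMod 4) * (j : ZMod 4) + 1) ^ 2
        = 4 * ((j : ZMod 4) ^ 2 + (j : ZMod 4)) + 1 := by ring
    rw [this]
    have h4 : (4 : ZMod 4) = 0 := by decide
    rw [h4, zero_mul, zero_add]

/-- a `2`-block of defect at least two has at least four characters (of height zero) -/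
theorem four_le_card_of_defect (hM : IsPModular 2 M) {B : Set (IrrCharacter G)}
    (hB : IsPBlock M B) (hd : 2 ≤ blockDefect 2 B) : 4 ≤ Nat.card B := by
  classical
  have hMp : M.IsPrime := pmod_isPrime hM
  have hsum := factorization_sum_sq hM hB
  change _ = _ + minDeg 2 B at hsum
  rw [blockDefect_eq] at hd
  set m := minDeg 2 B with hm
  set S := Finset.univ.filter (fun χ : IrrCharacter G => χ ∈ B) with hS
  have hdvd : ∀ χ ∈ S, 2 ^ m ∣ charDegree (χ : G → ℂ) := fun χ hχ =>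
    (pow_dvd_pow 2 (minDeg_le (Finset.mem_filter.1 hχ).2)).trans (Nat.ordProj_dvd _ _)
  choose! r hr using hdvd
  have hN : (∑ χ : IrrCharacter G, if χ ∈ B then charDegree (χ : G → ℂ) ^ 2 else 0)
      = 2 ^ (2 * m) * ∑ χ ∈ S, r χ ^ 2 := by
    rw [← Finset.sum_filter, Finset.mul_sum]
    refine Finset.sum_congr rfl fun χ hχ => ?_
    conv_lhs => rw [hr χ hχ]
    rw [mul_pow, ← pow_mul, mul_comm m 2]
  have h1 : 2 ^ (2 * m + 2) ∣ 2 ^ (2 * m) * ∑ χ ∈ S, r χ ^ 2 := by
    rw [← hN]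
    refine (pow_dvd_pow 2 ?_).trans (Nat.ordProj_dvd _ 2)
    rw [hsum]; omega
  have h2 : 4 ∣ ∑ χ ∈ S, r χ ^ 2 := by
    rw [pow_add] at h1
    exact Nat.dvd_of_mul_dvd_mul_left (by positivity) h1
  have h3 : ((∑ χ ∈ S, r χ ^ 2 : ℕ) : ZMod 4) = ((S.filter fun χ => Odd (r χ)).card : ZMod 4) := by
    have e1 : ((S.filter fun χ => Odd (r χ)).card : ZMod 4)
        = ∑ χ ∈ S, (if Odd (r χ) then (1 : ZMod 4) else 0) := by
      rw [Finset.card_eq_sum_ones, Nat.cast_sum, Finset.sum_filter]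
      refine Finset.sum_congr rfl fun χ _ => ?_
      split_ifs <;> simp
    rw [e1, Nat.cast_sum]
    refine Finset.sum_congr rfl fun χ _ => ?_
    rw [Nat.cast_pow]
    exact sq_zmod_four _
  have h4 : 4 ∣ (S.filter fun χ => Odd (r χ)).card := by
    rw [← ZMod.natCast_eq_zero_iff, ← h3, ZMod.natCast_eq_zero_iff]
    exact h2
  obtain ⟨χ0, hχ0, hχ0m⟩ := exists_minDeg (p := 2) (IsPBlock.nonempty hMp hB)
  have hχ0S : χ0 ∈ S := Finset.mem_filter.2 ⟨Finset.mem_univ _, hχ0⟩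
  have h5 : χ0 ∈ S.filter fun χ => Odd (r χ) := by
    refine Finset.mem_filter.2 ⟨hχ0S, ?_⟩
    by_contra hodd
    rw [Nat.not_odd_iff_even] at hodd
    obtain ⟨j, hj⟩ := hodd
    have h6 : 2 ^ (m + 1) ∣ charDegree (χ0 : G → ℂ) := ⟨j, by rw [hr χ0 hχ0S, hj, pow_succ]; ring⟩
    have h7 := (Nat.prime_two.pow_dvd_iff_le_factorization (irr_charDegree_pos χ0).ne').1 h6
    omega
  have h6 : 0 < (S.filter fun χ => Odd (r χ)).card := Finset.card_pos.2 ⟨χ0, h5⟩
  have h7 : (S.filter fun χ => Odd (r χ)).card ≤ S.card := Finset.card_le_card (Finset.filter_subset _ _)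
  have h8 : Nat.card B = S.card := by
    rw [Nat.card_eq_fintype_card, Fintype.card_subtype]
  have h9 := Nat.le_of_dvd h6 h4
  omega

end deg

section free

variable {G : Type u} [Group G] [Fintype G] (M : Ideal AlgInt) [hP : M.IsPrime]
variable {p : ℕ} [Fact p.Prime]

/-- free action of the inertial group on an abelian defect group: the block of every Brauer pair
`(Q, f)` of `B` with `Q ≠ 1` is nilpotent -/
theorem isANil_of_free' (hM : IsPModular p M) {B : Set (IrrCharacter G)} (hB : IsPBlock M B)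
    {y : APair (ResF M) G} (hy : IsAMax p y) (hyb : IsABlockOf (ebar M B) y)
    (hab : y.1 ≤ Cen y.1)
    (hfree : ∀ g ∈ stabP y, ∀ x ∈ y.1, x ≠ 1 → g * x * g⁻¹ = x → g ∈ Cen y.1)
    {Q : Subgroup G} (hQ1 : Q ≠ ⊥) {f : Set (IrrCharacter (Cen Q))}
    (hQf : IsBrauerPair p M Q f) (hxb : IsABlockOf (ebar M B) (toA M ⟨Q, f⟩)) :
    IsANil p (ebar M f) := by
  have := resF_charP hM
  have hdec := hasBlockDecomp (G := G) M
  have hCN : Cen Q ≤ Subgroup.normalizer (Q : Set G) := Subgroup.centralizer_le_normalizer _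
  intro z hz hzb g hg _
  have hn := aNormal_embQ_cen M hM hQf hz hzb
  have hzb' := (isABlockOf_iff_of_normal hdec hn).1 hxb
  have hg' : (g : G) ∈ stabP (embQ Q (Cen Q) z) := by
    rw [mem_stabP, ← embQ_cjP hCN, mem_stabP.1 hg]
  obtain ⟨t, ht⟩ := exists_cjP_ALE M hM hB hy hyb hn.2.1 hzb'
  obtain ⟨u, hu, c', hc', heq⟩ := stab_factor_of_abelian M hM hB hy hyb ht hab
    (conj_mem_stabP hg' t)
  obtain ⟨q, hq, hq1⟩ : ∃ q : G, q ∈ Q ∧ q ≠ 1 := by
    obtain ⟨q, hq⟩ := Subgroup.ne_bot_iff_exists_ne_one.1 hQ1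
    exact ⟨q.1, q.2, fun h => hq (Subtype.ext h)⟩
  have hxm : t * q * t⁻¹ ∈ (cjP t (embQ Q (Cen Q) z)).1 :=
    ⟨q, (le_sup_left : Q ≤ Q ⊔ _) hq, rfl⟩
  have hx1 : t * q * t⁻¹ ≠ 1 := by
    intro h
    apply hq1
    have : q = t⁻¹ * (t * q * t⁻¹) * t := by group
    rw [this, h]; group
  have hgq : (g : G) * q = q * g := ((Subgroup.mem_centralizer_iff.1 g.2) q hq).symm
  have hcq := (Subgroup.mem_centralizer_iff.1 hc') _ hxm
  have hufix : u * (t * q * t⁻¹) * u⁻¹ = t * q * t⁻¹ := by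
    have hu' : u = t * g * t⁻¹ * c'⁻¹ := by rw [heq]; group
    have h1 : c'⁻¹ * (t * q * t⁻¹) * c' = t * q * t⁻¹ := by
      rw [mul_assoc, hcq]; group
    calc u * (t * q * t⁻¹) * u⁻¹
        = t * g * t⁻¹ * (c'⁻¹ * (t * q * t⁻¹) * c') * (t * g * t⁻¹)⁻¹ := by rw [hu']; group
      _ = t * ((g : G) * q) * (g : G)⁻¹ * t⁻¹ := by rw [h1]; group
      _ = t * q * t⁻¹ := by rw [hgq]; group
  have hucen := hfree u hu _ (ht.le hxm) hx1 hufix
  have h0 : t * g * t⁻¹ ∈ Cen (cjP t (embQ Q (Cen Q) z)).1 := by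
    rw [heq]
    exact Subgroup.mul_mem _ (cen_anti ht.le hucen) hc'
  have h1 : (g : G) ∈ Cen (embQ Q (Cen Q) z).1 := mem_cen_of_conj_mem_cen h0
  have h2 : (g : G) ∈ (Cen z.1).map (Cen Q).subtype := by
    rw [goodP_cen Q z.1]; exact h1
  obtain ⟨h, hh, hhg⟩ := h2
  have : h = g := Subtype.ext hhg
  rwa [this] at hh

theorem local_hyps_free (hM : IsPModular p M) {B : Set (IrrCharacter G)} (hB : IsPBlock M B)
    {y : APair (ResF M) G} (hy : IsAMax p y) (hyb : IsABlockOf (ebar M B) y)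
    (hab : y.1 ≤ Cen y.1)
    (hfree : ∀ g ∈ stabP y, ∀ x ∈ y.1, x ≠ 1 → g * x * g⁻¹ = x → g ∈ Cen y.1)
    {Q H : Subgroup G} (hH : H = Cen Q) (hQ : IsPGroup p Q) (hQ1 : Q ≠ ⊥)
    {b : Set (IrrCharacter H)} (hb : IsPBlock M b)
    (hxb : IsABlockOf (ebar M B) ((Q, idem M H b) : APair (ResF M) G)) :
    IsANil p (ebar M b) ∧
      ∀ z : APair (ResF M) H, IsAPair p z → IsABlockOf (ebar M b) z → z.1 ≤ Cen z.1 := by
  subst hH
  have hD := isDefectGroup_of_isAMax M hM hB hy hyb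
  exact ⟨isANil_of_free' M hM hB hy hyb hab hfree hQ1 ⟨hQ, hb⟩ hxb,
    abel_cen M hM (abel_of_isDefectGroup M hM hB hD hab) ⟨hQ, hb⟩ hxb⟩

theorem isPGroup_zpowers {x : G} (hx : ∃ k : ℕ, orderOf x = p ^ k) :
    IsPGroup p (Subgroup.zpowers x) := by
  obtain ⟨k, hk⟩ := hx
  exact IsPGroup.of_card (n := k) (by rw [Nat.card_zpowers, hk])

/-- a subsection as a Brauer pair -/
theorem pair_of_subsection (hM : IsPModular p M) {B : Set (IrrCharacter G)} {x : G}
    (hx : ∃ k : ℕ, orderOf x = p ^ k)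
    {b : Set (IrrCharacter (Subgroup.centralizer ({x} : Set G)))}
    (hind : IsInducedBlock M (Subgroup.centralizer ({x} : Set G)) b B) :
    IsAPair p ((Subgroup.zpowers x, idem M (Subgroup.centralizer ({x} : Set G)) b) :
      APair (ResF M) G) ∧
    IsABlockOf (ebar M B) ((Subgroup.zpowers x, idem M (Subgroup.centralizer ({x} : Set G)) b) :
      APair (ResF M) G) := by
  have hQ := isPGroup_zpowers (p := p) hx
  have hle : Subgroup.zpowers x ≤ Subgroup.centralizer ({x} : Set G) := by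
    rw [Subgroup.zpowers_le, Subgroup.mem_centralizer_singleton_iff]
  have h1 := (isInducedBlock_iff_trunc M hM hQ hle (cen_zpowers x).le
    (by rw [← cen_zpowers]; exact Subgroup.centralizer_le_normalizer _) hind.1 hind.2.1).1 hind
  refine ⟨⟨hQ, ?_⟩, isPrimIdem_ebar M hind.2.1, h1⟩
  show IsPrimIdem (Cen (Subgroup.zpowers x)) _
  rw [cen_zpowers]
  exact isPrimIdem_idem M hind.1

/-- free inertial action on an abelian defect group: all nontrivial subsections have `l(b) = 1` -/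
theorem blockRank_subsection_of_free (hM : IsPModular p M) {B : Set (IrrCharacter G)}
    (hB : IsPBlock M B) {y : APair (ResF M) G} (hy : IsAMax p y)
    (hyb : IsABlockOf (ebar M B) y) (hab : y.1 ≤ Cen y.1)
    (hfree : ∀ g ∈ stabP y, ∀ x ∈ y.1, x ≠ 1 → g * x * g⁻¹ = x → g ∈ Cen y.1)
    {x : G} (hx : ∃ k : ℕ, orderOf x = p ^ k) (hx1 : x ≠ 1)
    {b : Set (IrrCharacter (Subgroup.centralizer ({x} : Set G)))}
    (hind : IsInducedBlock M (Subgroup.centralizer ({x} : Set G)) b B) : blockRank p b = 1 := by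
  obtain ⟨hpair, hblk⟩ := pair_of_subsection M hM hx hind
  obtain ⟨h1, h2⟩ := local_hyps_free M hM hB hy hyb hab hfree (cen_zpowers x).symm hpair.1
    (by rw [Ne, Subgroup.zpowers_eq_bot]; exact hx1) hind.1 hblk
  have := Fintype.ofFinite (Subgroup.centralizer ({x} : Set G))
  exact (nil_abel_aux M hM _ _ b rfl hind.1 h1 h2).1

/-- transitive inertial action: all nontrivial subsections are conjugate -/
theorem subsection_conj_of_transitive (hM : IsPModular p M) {B : Set (IrrCharacter G)}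
    (hB : IsPBlock M B) {y : APair (ResF M) G} (hy : IsAMax p y)
    (hyb : IsABlockOf (ebar M B) y)
    (htrans : ∀ a ∈ y.1, a ≠ 1 → ∀ v ∈ y.1, v ≠ 1 → ∃ t ∈ stabP y, t * a * t⁻¹ = v)
    {x x' : G} (hx : ∃ k : ℕ, orderOf x = p ^ k) (hx' : ∃ k : ℕ, orderOf x' = p ^ k)
    (hx1 : x ≠ 1) (hx'1 : x' ≠ 1)
    {b : Set (IrrCharacter (Subgroup.centralizer ({x} : Set G)))}
    {b' : Set (IrrCharacter (Subgroup.centralizer ({x'} : Set G)))}
    (hind : IsInducedBlock M (Subgroup.centralizer ({x} : Set G)) b B)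
    (hind' : IsInducedBlock M (Subgroup.centralizer ({x'} : Set G)) b' B) :
    ∃ h : G, h * x * h⁻¹ = x' ∧ cj h (idem M (Subgroup.centralizer ({x} : Set G)) b)
      = idem M (Subgroup.centralizer ({x'} : Set G)) b' := by
  have := resF_charP hM
  have hdec := hasBlockDecomp (G := G) M
  obtain ⟨hpair, hblk⟩ := pair_of_subsection M hM hx hind
  obtain ⟨hpair', hblk'⟩ := pair_of_subsection M hM hx' hind'
  obtain ⟨g, hg⟩ := exists_cjP_ALE M hM hB hy hyb hpair hblk
  obtain ⟨g', hg'⟩ := exists_cjP_ALE M hM hB hy hyb hpair' hblk'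
  have hne : ∀ (g x : G), x ≠ 1 → g * x * g⁻¹ ≠ 1 := by
    intro g x hx1 h
    apply hx1
    have : x = g⁻¹ * (g * x * g⁻¹) * g := by group
    rw [this, h]; group
  have hv : g * x * g⁻¹ ∈ y.1 := hg.le ⟨x, Subgroup.mem_zpowers x, rfl⟩
  have hv' : g' * x' * g'⁻¹ ∈ y.1 := hg'.le ⟨x', Subgroup.mem_zpowers x', rfl⟩
  obtain ⟨t, ht, htv⟩ := htrans _ hv (hne g x hx1) _ hv' (hne g' x' hx'1)
  have h1 := hg.cjP t
  rw [mem_stabP.1 ht, cjP_cjP] at h1
  have h2 := ALE.eq_of_fst_eq hdec hy.1 h1 hg' (by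
    show (Subgroup.zpowers x).map _ = (Subgroup.zpowers x').map _
    rw [map_conj_zpowers, map_conj_zpowers, ← htv]
    congr 1
    group)
  refine ⟨g'⁻¹ * (t * g), ?_, ?_⟩
  · calc g'⁻¹ * (t * g) * x * (g'⁻¹ * (t * g))⁻¹ = g'⁻¹ * (t * (g * x * g⁻¹) * t⁻¹) * g' := by group
      _ = g'⁻¹ * (g' * x' * g'⁻¹) * g' := by rw [htv]
      _ = x' := by group
  · have h3 : cj (t * g) (idem M (Subgroup.centralizer ({x} : Set G)) b)
        = cj g' (idem M (Subgroup.centralizer ({x'} : Set G)) b') := (Prod.ext_iff.1 h2).2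
    rw [cj_mul_apply, h3, cj_inv_cj]

/-- free and transitive inertial action on `P \ {1}`: `k(B) = l(B) + 1` -/
theorem card_eq_of_transitive (hM : IsPModular p M) {B : Set (IrrCharacter G)}
    (hB : IsPBlock M B) {y : APair (ResF M) G} (hy : IsAMax p y)
    (hyb : IsABlockOf (ebar M B) y) (hab : y.1 ≤ Cen y.1)
    (hfree : ∀ g ∈ stabP y, ∀ x ∈ y.1, x ≠ 1 → g * x * g⁻¹ = x → g ∈ Cen y.1)
    (htrans : ∀ a ∈ y.1, a ≠ 1 → ∀ v ∈ y.1, v ≠ 1 → ∃ t ∈ stabP y, t * a * t⁻¹ = v)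
    (hne : y.1 ≠ ⊥) : Nat.card B = blockRank p B + 1 := by
  classical
  have := resF_charP hM
  have hdec := hasBlockDecomp (G := G) M
  obtain ⟨X, r, hX, hXrep, hr, hrX, hr1⟩ := Helper77b.exists_pElement_reps p G
  have key := Cfsg.Agent.S4511.result p M hM B hB X hX hXrep
  set t : G → ℕ := fun x => ∑ᶠ b ∈ {b : Set (IrrCharacter (Subgroup.centralizer ({x} : Set G))) |
    IsInducedBlock M (Subgroup.centralizer ({x} : Set G)) b B}, blockRank p b with ht
  obtain ⟨u, hu, hu1⟩ : ∃ q : G, q ∈ y.1 ∧ q ≠ 1 := by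
    obtain ⟨q, hq⟩ := Subgroup.ne_bot_iff_exists_ne_one.1 hne
    exact ⟨q.1, q.2, fun h => hq (Subtype.ext h)⟩
  have hup := exists_orderOf_eq_of_mem hy.1.1 hu
  have hx0X : r u ∈ X := hrX u hup
  have hx01 : r u ≠ 1 := by
    intro h
    have := hr u
    rw [h] at this
    exact hu1 (isConj_one_right.1 this.symm)
  obtain ⟨g, hg⟩ := _root_.isConj_iff.1 (hr u)
  obtain ⟨f, hf⟩ := exists_ALE' hdec hy.1
    (show Subgroup.zpowers u ≤ y.1 by rw [Subgroup.zpowers_le]; exact hu)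
  obtain ⟨b0, hb0, -⟩ := exists_block_of_conj M hM hB hy hyb hf hg
  have h1X : (1 : G) ∈ X := by
    have := hrX 1 ⟨0, by simp⟩
    rwa [hr1] at this
  have ht1 : t 1 = blockRank p B := Helper77b.sum_rank_one hM hB
  have htx0 : t (r u) = 1 := by
    have hset : {b : Set (IrrCharacter (Subgroup.centralizer ({r u} : Set G))) |
        IsInducedBlock M (Subgroup.centralizer ({r u} : Set G)) b B} = {b0} := by
      ext b
      simp only [Set.mem_ofPred_eq, Set.mem_singleton_iff]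
      constructor
      · intro hb
        obtain ⟨h, hh, hhb⟩ := subsection_conj_of_transitive M hM hB hy hyb htrans
          (hX _ hx0X) (hX _ hx0X) hx01 hx01 hb hb0
        have hhC : h ∈ Subgroup.centralizer ({r u} : Set G) := by
          rw [Subgroup.mem_centralizer_singleton_iff]
          calc h * r u = (h * r u * h⁻¹) * h := by group
            _ = r u * h := by rw [hh]
        rw [(isPrimIdem_idem M hb.1).mem.2 h hhC] at hhb
        exact idem_injective M hb.1 hb0.1 hhb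
      · rintro rfl
        exact hb0
    rw [ht]
    simp only
    rw [hset, finsum_mem_singleton]
    exact blockRank_subsection_of_free M hM hB hy hyb hab hfree (hX _ hx0X) hx01 hb0
  have htx : ∀ x ∈ X.erase 1, x ≠ r u → t x = 0 := by
    intro x hx hxne
    have hxX := Finset.mem_of_mem_erase hx
    have hx1 := Finset.ne_of_mem_erase hx
    have hset : {b : Set (IrrCharacter (Subgroup.centralizer ({x} : Set G))) |
        IsInducedBlock M (Subgroup.centralizer ({x} : Set G)) b B} = ∅ := by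
      rw [Set.eq_empty_iff_forall_notMem]
      intro b hb
      obtain ⟨h, hh, -⟩ := subsection_conj_of_transitive M hM hB hy hyb htrans
        (hX _ hxX) (hX _ hx0X) hx1 hx01 hb hb0
      apply hxne
      obtain ⟨z, -, hz⟩ := hXrep x (hX _ hxX)
      rw [hz x ⟨hxX, IsConj.refl x⟩, hz (r u) ⟨hx0X, _root_.isConj_iff.2 ⟨h, hh⟩⟩]
    rw [ht]
    simp only
    rw [hset, finsum_mem_empty]
  rw [key, ← Finset.add_sum_erase X t h1X, ht1,
    Finset.sum_eq_single (r u) (fun x hx hxne => htx x hx hxne)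
      (fun h => absurd (Finset.mem_erase.2 ⟨hx01, hx0X⟩) h), htx0]

/-- every element of an abelian defect group gives a major subsection -/
theorem exists_major_block (hM : IsPModular p M) {B : Set (IrrCharacter G)}
    (hB : IsPBlock M B) {y : APair (ResF M) G} (hy : IsAMax p y)
    (hyb : IsABlockOf (ebar M B) y) (hab : y.1 ≤ Cen y.1) {u : G} (hu : u ∈ y.1) :
    ∃ b : Set (IrrCharacter (Subgroup.centralizer ({u} : Set G))),
      IsInducedBlock M (Subgroup.centralizer ({u} : Set G)) b B ∧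
      blockDefect p b = blockDefect p B := by
  have := resF_charP hM
  have hdec := hasBlockDecomp (G := G) M
  have hp : p.Prime := Fact.out
  have hD := isDefectGroup_of_isAMax M hM hB hy hyb
  have hcard := card_of_isDefectGroup hM hB hD
  have huy : Subgroup.zpowers u ≤ y.1 := by rw [Subgroup.zpowers_le]; exact hu
  obtain ⟨f, hf⟩ := exists_ALE' hdec hy.1 huy
  obtain ⟨b, hbind, hbe⟩ := exists_block_of_conj M hM hB hy hyb hf (g := 1) (x := u) (by group)
  rw [cj_one_apply] at hbe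
  have hPC : y.1 ≤ Cen (Subgroup.zpowers u) := hab.trans (cen_anti huy)
  have hPH : y.1 ≤ Subgroup.centralizer ({u} : Set G) := by rw [← cen_zpowers]; exact hPC
  have hn_u : ANormal p ((Subgroup.zpowers u, f) : APair (ResF M) G) y :=
    hf.toANormal hdec hy.1 (hPC.trans (Subgroup.centralizer_le_normalizer _))
  have hdef : IsDef p (Subgroup.centralizer ({u} : Set G)) f y.1 :=
    isDef_of_normal_isAMax M hM hB hy hyb hn_u hPH (by
      rw [← cen_zpowers]; exact cen_le_stabP hn_u.1)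
  have hDb : IsDefectGroup p M b (y.1.subgroupOf (Subgroup.centralizer ({u} : Set G))) :=
    (isDefectGroup_subgroupOf_iff M hM hbind.1 hPH).2 (by rw [hbe]; exact hdef)
  refine ⟨b, hbind, ?_⟩
  have h1 := card_of_isDefectGroup hM hbind.1 hDb
  rw [card_subgroupOf_of_le hPH, hcard] at h1
  exact (Nat.pow_right_injective hp.two_le h1).symm

/-- free inertial action on a nontrivial abelian defect group `P`: `k(B) ≤ |P|` -/
theorem card_le_of_free (hM : IsPModular p M) {B : Set (IrrCharacter G)}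
    (hB : IsPBlock M B) {y : APair (ResF M) G} (hy : IsAMax p y)
    (hyb : IsABlockOf (ebar M B) y) (hab : y.1 ≤ Cen y.1)
    (hfree : ∀ g ∈ stabP y, ∀ x ∈ y.1, x ≠ 1 → g * x * g⁻¹ = x → g ∈ Cen y.1)
    (hne : y.1 ≠ ⊥) : Nat.card B ≤ Nat.card y.1 := by
  obtain ⟨u, hu, hu1⟩ : ∃ q : G, q ∈ y.1 ∧ q ≠ 1 := by
    obtain ⟨q, hq⟩ := Subgroup.ne_bot_iff_exists_ne_one.1 hne
    exact ⟨q.1, q.2, fun h => hq (Subtype.ext h)⟩
  have hup := exists_orderOf_eq_of_mem hy.1.1 hu
  obtain ⟨b, hbind, hmaj⟩ := exists_major_block M hM hB hy hyb hab hu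
  have hl := blockRank_subsection_of_free M hM hB hy hyb hab hfree hup hu1 hbind
  have hD := isDefectGroup_of_isAMax M hM hB hy hyb
  rw [card_of_isDefectGroup hM hB hD]
  exact Helper77b.card_le_of_major_rank_one hM u hup hbind hmaj hl

end free

end Cfsg.Agent.Lib.Helper77
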