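import Mathlib
import Cfsg.Agent.Lib.Helper24.PGroup

/-!
# A `p'`-element normalizing a chain of `p`-subgroups (helper77)
-/

set_option autoImplicit false

namespace Cfsg.Agent.Lib.Helper77

variable {G : Type*} [Group G]

/-- The elements of `Q (last)` normalizing all `Q j`, `j ≥ k`. -/
def chainSub {m : ℕ} (Q : Fin (m + 1) → Subgroup G) (k : ℕ) : Subgroup G where
  carrier := {q | q ∈ Q (Fin.last m) ∧ ∀ j : Fin (m + 1), k ≤ j.val →
    q ∈ Subgroup.normalizer (Q j : Set G)}
  mul_mem' := fun ha hb => ⟨Subgroup.mul_mem _ ha.1 hb.1,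
    fun j hj => Subgroup.mul_mem _ (ha.2 j hj) (hb.2 j hj)⟩
  one_mem' := ⟨Subgroup.one_mem _, fun _ _ => Subgroup.one_mem _⟩
  inv_mem' := fun ha => ⟨Subgroup.inv_mem _ ha.1, fun j hj => Subgroup.inv_mem _ (ha.2 j hj)⟩

theorem mem_chainSub {m : ℕ} {Q : Fin (m + 1) → Subgroup G} {k : ℕ} {q : G} :
    q ∈ chainSub Q k ↔ q ∈ Q (Fin.last m) ∧ ∀ j : Fin (m + 1), k ≤ j.val →
      q ∈ Subgroup.normalizer (Q j : Set G) := Iff.rfl

theorem mem_centralizer_of_chain [Finite G] (p : ℕ) [Fact p.Prime] (m : ℕ)
    (Q : Fin (m + 1) → Subgroup G) (hQ : Monotone Q) (hQp : ∀ i, IsPGroup p (Q i)) (n : G)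
    (hn : ∀ i, n ∈ Subgroup.normalizer (Q i : Set G)) (hreg : ¬ p ∣ orderOf n)
    (hcent : ∀ q ∈ Q (Fin.last m), (∀ i, q ∈ Subgroup.normalizer (Q i : Set G)) → q * n = n * q) :
    n ∈ Subgroup.centralizer (Q (Fin.last m) : Set G) := by
  set A : Subgroup G := Subgroup.zpowers n with hA
  have hcop : (Nat.card A).Coprime p := by
    rw [hA, Nat.card_zpowers, Nat.coprime_comm]
    exact (Nat.Prime.coprime_iff_not_dvd Fact.out).2 hreg
  have hAle : ∀ K : Subgroup G, n ∈ K → A ≤ K := fun K hK => by
    rw [hA, Subgroup.zpowers_le]; exact hK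
  have hnorm : ∀ k, A ≤ Subgroup.normalizer (chainSub Q k : Set G) := by
    intro k
    apply hAle
    rw [Subgroup.mem_normalizer_iff]
    intro x
    rw [mem_chainSub, mem_chainSub, ← (Subgroup.mem_normalizer_iff.1 (hn (Fin.last m))) x]
    apply and_congr_right
    intro _
    apply forall_congr'
    intro j
    apply imp_congr_right
    intro _
    constructor
    · intro h
      exact Subgroup.mul_mem _ (Subgroup.mul_mem _ (hn j) h) (Subgroup.inv_mem _ (hn j))
    · intro h
      have := Subgroup.mul_mem _ (Subgroup.mul_mem _ (Subgroup.inv_mem _ (hn j)) h) (hn j)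
      simpa [mul_assoc] using this
  have key : ∀ k, k ≤ m → chainSub Q k ≤ Subgroup.centralizer (A : Set G) := by
    intro k
    induction k with
    | zero =>
      intro _ q hq
      rw [hA, Subgroup.mem_centralizer_iff]
      intro a ha
      obtain ⟨z, rfl⟩ := Subgroup.mem_zpowers_iff.1 ha
      have hc : Commute n q := (hcent q hq.1 (fun i => hq.2 i (Nat.zero_le _))).symm
      exact (hc.zpow_left z).eq
    | succ k ih =>
      intro hk
      have ihk := ih (by omega)
      let jk : Fin (m + 1) := ⟨k, by omega⟩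
      have hQk : Q jk ≤ chainSub Q k := by
        intro q hq
        refine ⟨hQ (Fin.le_last jk) hq, fun j hj => ?_⟩
        exact Subgroup.le_normalizer (hQ (show jk ≤ j from hj) hq)
      have hQk1 : Q jk ≤ chainSub Q (k + 1) := by
        intro q hq
        exact ⟨(hQk hq).1, fun j hj => (hQk hq).2 j (by omega)⟩
      apply Cfsg.Agent.Lib.Helper24.thompson_AxB p A (Q jk) (chainSub Q (k + 1))
        ((hQp (Fin.last m)).to_le (fun q hq => hq.1)) (hQp jk) hcop
      · exact Subgroup.le_centralizer_iff.1 (hQk.trans ihk)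
      · exact hnorm _
      · exact hQk1.trans Subgroup.le_normalizer
      · refine le_trans ?_ ihk
        intro q hq
        obtain ⟨h1, h2⟩ := Subgroup.mem_inf.1 hq
        refine ⟨h1.1, fun j hj => ?_⟩
        rcases Nat.eq_or_lt_of_le hj with h | h
        · have : j = jk := Fin.ext h.symm
          rw [this]
          exact Subgroup.centralizer_le_normalizer _ h2
        · exact h1.2 j h
  have hlast : Q (Fin.last m) ≤ chainSub Q m := by
    intro q hq
    refine ⟨hq, fun j hj => ?_⟩
    have : j = Fin.last m := Fin.ext (le_antisymm (Fin.is_le j) hj)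
    rw [this]
    exact Subgroup.le_normalizer hq
  have h := Subgroup.le_centralizer_iff.1 (hlast.trans (key m le_rfl))
  exact h (Subgroup.mem_zpowers n)

end Cfsg.Agent.Lib.Helper77
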