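import Cfsg.Agent.Lib.Helper97.FH.Defs

set_option autoImplicit false
set_option linter.unusedVariables false

/-! # Feit--Higman farm (S1142), piece AN2: uniqueness of the eigenfunction on levels -/

namespace Cfsg.Agent.Lib.Helper77.FH

open Cfsg Cfsg.Agent.Lib.Helper6.BN Cfsg.Agent.Lib.Helper97.FH
open scoped Classical

variable {G : Type*} [Group G]

theorem lev_uniq [Fintype G] {K1 K2 : Subgroup G} {β m u v : ℕ} {y : ℕ → G}
    (L : Levels K1 K2 β m u v y) (hβ : 0 < β) (hm : 2 ≤ m) (hu : 2 ≤ u) (hv : 2 ≤ v) (μ : ℂ)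
    (φ : G → ℂ) (hφ : BiInv K1 φ) (hev : ∀ g, opA K1 K2 φ g = μ * φ g) (h0 : φ 1 = 0) : φ = 0 := by
  have hβ' : (β : ℂ) ≠ 0 := by exact_mod_cast hβ.ne'
  have hu' : (u : ℂ) ≠ 0 := by
    have : u ≠ 0 := by omega
    exact_mod_cast this
  have hv' : (v : ℂ) ≠ 0 := by
    have : v ≠ 0 := by omega
    exact_mod_cast this
  have hu1 : (u : ℂ) + 1 ≠ 0 := by exact_mod_cast (Nat.succ_ne_zero u)
  have hy0 : φ (y 0) = 0 := by rw [L.y_zero]; exact h0
  have hy1 : φ (y 1) = 0 := by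
    have h1 := L.ev_zero φ hφ
    rw [hev, hy0] at h1
    have h2 : (β : ℂ) ^ 2 * ((u + 1) * (v * φ (y 1))) = 0 := by
      rw [zero_add] at h1
      rw [← h1]; ring
    have h3 : (β : ℂ) ^ 2 * ((u + 1) * v) ≠ 0 :=
      mul_ne_zero (pow_ne_zero 2 hβ') (mul_ne_zero hu1 hv')
    have h4 : ((β : ℂ) ^ 2 * ((u + 1) * v)) * φ (y 1) = 0 := by
      rw [← h2]; ring
    exact (mul_eq_zero.1 h4).resolve_left h3
  have key : ∀ i, (2 * i ≤ m → φ (y i) = 0) ∧ (2 * (i + 1) ≤ m → φ (y (i + 1)) = 0) := by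
    intro i
    induction i with
    | zero => exact ⟨fun _ => hy0, fun _ => hy1⟩
    | succ i ih =>
      refine ⟨ih.2, fun hi => ?_⟩
      have ha := ih.1 (by omega)
      have hb := ih.2 (by omega)
      have h1 := L.ev_mid φ hφ i (by omega)
      rw [hev, ha, hb] at h1
      have h3 : (β : ℂ) ^ 2 * (u * v) ≠ 0 :=
        mul_ne_zero (pow_ne_zero 2 hβ') (mul_ne_zero hu' hv')
      have h4 : ((β : ℂ) ^ 2 * (u * v)) * φ (y (i + 2)) = 0 := by
        have : (β : ℂ) ^ 2 * (0 + (u + v) * 0 + u * v * φ (y (i + 2))) = 0 := by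
          rw [← h1]; ring
        rw [← this]; ring
      exact (mul_eq_zero.1 h4).resolve_left h3
  funext g
  obtain ⟨i, hi, h, hh, h', hh', rfl⟩ := L.cover g
  rw [hφ h hh h' hh']
  exact (key i).1 hi

end Cfsg.Agent.Lib.Helper77.FH
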