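import Cfsg.Agent.Lib.Helper97.FH.Defs

set_option autoImplicit false

/-! # Feit--Higman farm (S1142), piece AN3: existence of the eigenfunction with given levels -/

namespace Cfsg.Agent.Lib.Helper77.FH

open Cfsg Cfsg.Agent.Lib.Helper6.BN Cfsg.Agent.Lib.Helper97.FH
open scoped Classical

variable {G : Type*} [Group G]

theorem opA_biInv_an3 [Fintype G] (K1 K2 : Subgroup G) (f : G → ℂ) (hf : BiInv K1 f)
    {h h' : G} (hh : h ∈ K1) (hh' : h' ∈ K1) (g : G) :
    opA K1 K2 f (h * g * h') = opA K1 K2 f g := by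
  unfold opA
  rw [← Equiv.sum_comp (Equiv.mulRight h⁻¹)]
  refine Finset.sum_congr rfl fun x _ => Finset.sum_congr rfl fun z _ => ?_
  have h1 : (Equiv.mulRight h⁻¹ x ∈ K1) ↔ x ∈ K1 := by
    simp only [Equiv.coe_mulRight]
    exact K1.mul_mem_cancel_right (K1.inv_mem hh)
  have h2 : f (z * (Equiv.mulRight h⁻¹ x) * (h * g * h')) = f (z * x * g) := by
    have := hf 1 K1.one_mem h' hh' (z * x * g)
    rw [one_mul] at this
    rw [← this]
    congr 1
    simp only [Equiv.coe_mulRight]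
    group
  rw [h2]
  simp only [h1]

theorem lev_exists [Fintype G] {K1 K2 : Subgroup G} {β m u v : ℕ} {y : ℕ → G}
    (L : Levels K1 K2 β m u v y) (hm : 2 ≤ m) (μ' : ℂ) (F : ℕ → ℂ) (hF : Recs m u v μ' F) :
    ∃ f : G → ℂ, BiInv K1 f ∧ (∀ g, opA K1 K2 f g = ((β : ℂ) ^ 2 * μ') * f g) ∧
      (∀ g, f g⁻¹ = f g) ∧ (∀ i, 2 * i ≤ m → f (y i) = F i) := by
  set lvl : G → ℕ := fun g => Classical.choose (L.cover g) with hlvl
  have hspec : ∀ g, 2 * lvl g ≤ m ∧ ∃ h ∈ K1, ∃ h' ∈ K1, g = h * y (lvl g) * h' :=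
    fun g => Classical.choose_spec (L.cover g)
  have huniq : ∀ (g : G) (i : ℕ), 2 * i ≤ m → (∃ h ∈ K1, ∃ h' ∈ K1, g = h * y i * h') →
      lvl g = i := by
    rintro g i hi ⟨h, hh, h', hh', hg⟩
    obtain ⟨hl, a, ha, a', ha', hg'⟩ := hspec g
    refine L.disj (lvl g) i hl hi ⟨h⁻¹ * a, K1.mul_mem (K1.inv_mem hh) ha, a' * h'⁻¹,
      K1.mul_mem ha' (K1.inv_mem hh'), ?_⟩
    have : h * y i * h' = a * y (lvl g) * a' := by rw [← hg, ← hg']
    calc y i = h⁻¹ * (h * y i * h') * h'⁻¹ := by group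
      _ = h⁻¹ * (a * y (lvl g) * a') * h'⁻¹ := by rw [this]
      _ = h⁻¹ * a * y (lvl g) * (a' * h'⁻¹) := by group
  have hbi : BiInv K1 (fun g => F (lvl g)) := by
    intro h hh h' hh' g
    obtain ⟨hl, a, ha, a', ha', hg'⟩ := hspec g
    have : lvl (h * g * h') = lvl g := by
      refine huniq _ _ hl ⟨h * a, K1.mul_mem hh ha, a' * h', K1.mul_mem ha' hh', ?_⟩
      conv_lhs => rw [hg']
      group
    simp only [this]
  have hy : ∀ i, 2 * i ≤ m → lvl (y i) = i := fun i hi =>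
    huniq _ _ hi ⟨1, K1.one_mem, 1, K1.one_mem, by simp⟩
  refine ⟨fun g => F (lvl g), hbi, ?_, ?_, fun i hi => by simp only [hy i hi]⟩
  · intro g
    obtain ⟨hl, a, ha, a', ha', hg'⟩ := hspec g
    have e1 : opA K1 K2 (fun g => F (lvl g)) g = opA K1 K2 (fun g => F (lvl g)) (y (lvl g)) := by
      conv_lhs => rw [hg']
      exact opA_biInv_an3 K1 K2 _ hbi ha ha' _
    rw [e1]
    show _ = (β : ℂ) ^ 2 * μ' * F (lvl g)
    generalize lvl g = i at hl
    rcases i with _ | i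
    · rw [L.ev_zero _ hbi]
      simp only [hy 0 (by omega), hy 1 (by omega)]
      rw [mul_assoc ((β : ℂ) ^ 2) μ', hF.r0]
    · by_cases hmid : 2 * (i + 1) + 2 ≤ m
      · rw [L.ev_mid _ hbi i hmid]
        simp only [hy i (by omega), hy (i + 1) (by omega), hy (i + 2) (by omega)]
        rw [mul_assoc ((β : ℂ) ^ 2) μ', hF.rmid i hmid]
      · have : m = 2 * (i + 1) ∨ m = 2 * (i + 1) + 1 := by omega
        rcases this with he | ho
        · rw [L.ev_even _ hbi i he]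
          simp only [hy i (by omega), hy (i + 1) (by omega)]
          rw [mul_assoc ((β : ℂ) ^ 2) μ', hF.reven i he]
        · rw [L.ev_odd _ hbi i ho]
          simp only [hy i (by omega), hy (i + 1) (by omega)]
          rw [mul_assoc ((β : ℂ) ^ 2) μ', hF.rodd i ho]
  · intro g
    obtain ⟨hl, a, ha, a', ha', hg'⟩ := hspec g
    obtain ⟨b, hb, b', hb', hinv⟩ := L.inv (lvl g) hl
    have : lvl g⁻¹ = lvl g := by
      refine huniq _ _ hl ⟨a'⁻¹ * b, K1.mul_mem (K1.inv_mem ha') hb, b' * a⁻¹,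
        K1.mul_mem hb' (K1.inv_mem ha), ?_⟩
      calc g⁻¹ = a'⁻¹ * (y (lvl g))⁻¹ * a⁻¹ := by
            conv_lhs => rw [hg']
            group
        _ = a'⁻¹ * (b * y (lvl g) * b') * a⁻¹ := by rw [hinv]
        _ = a'⁻¹ * b * y (lvl g) * (b' * a⁻¹) := by group
    simp only [this]

end Cfsg.Agent.Lib.Helper77.FH
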