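import Cfsg.Agent.Lib.Helper97.FH.Defs

set_option autoImplicit false
set_option linter.unusedVariables false

/-! # Feit--Higman farm (S1142), piece AN4: the explicit eigenfunction satisfies the recurrences -/

namespace Cfsg.Agent.Lib.Helper77.FH

open Cfsg Cfsg.Agent.Lib.Helper6.BN Cfsg.Agent.Lib.Helper97.FH
open scoped Classical

theorem Gs_recs {m u v : ℕ} (hm : 2 ≤ m) (hu : 2 ≤ u) (hv : 2 ≤ v) {r ξ : ℂ}
    (hr : r ^ 2 = u * v) (hodd : Odd m → (u = v ∧ r = u)) (hξ : ξ ^ m = 1) :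
    Recs m u v (u + v + r * (ξ + ξ⁻¹)) (Gs u v r ξ) := by
  have hξ0 : ξ ≠ 0 := by
    rintro rfl
    rw [zero_pow (by omega)] at hξ
    exact zero_ne_one hξ
  have hu' : (u : ℂ) ≠ 0 := by
    have : u ≠ 0 := by omega
    exact_mod_cast this
  have hv' : (v : ℂ) ≠ 0 := by
    have : v ≠ 0 := by omega
    exact_mod_cast this
  have hr0 : r ≠ 0 := by
    rintro rfl
    apply mul_ne_zero hu' hv'
    rw [← hr]; ring
  obtain ⟨η, hη⟩ : ∃ η, η = ξ⁻¹ := ⟨_, rfl⟩
  obtain ⟨ρ, hρ⟩ : ∃ ρ, ρ = r⁻¹ := ⟨_, rfl⟩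
  have h2 : ξ * η = 1 := by rw [hη]; exact mul_inv_cancel₀ hξ0
  have h1 : r * ρ = 1 := by rw [hρ]; exact mul_inv_cancel₀ hr0
  have hG : ∀ i, Gs u v r ξ i = ρ ^ i * ((u * v * ξ + r * (v - 1) - v * η) * ξ ^ i
      - (u * v * η + r * (v - 1) - v * ξ) * η ^ i) := by
    intro i
    simp only [Gs, aC, inv_inv, hη, hρ]
  have hEN : ∀ i : ℕ, ξ ^ i * η ^ i = 1 := by
    intro i
    rw [← mul_pow, h2, one_pow]
  rw [← hη]
  clear hη hρ
  constructor
  · rw [hG 0, hG 1]
    simp only [pow_zero, pow_one, one_mul, mul_one]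
    linear_combination (-((u : ℂ) + 1) * v * (r * (ξ ^ 2 - η ^ 2) + (v - 1) * (ξ - η))) * h1
      + (((u : ℂ) + 1) * v * ρ * (ξ ^ 2 - η ^ 2)) * hr
  · intro i _
    rw [hG i, hG (i + 1), hG (i + 2)]
    generalize (u * v * ξ + r * (v - 1) - v * η : ℂ) = A
    generalize (u * v * η + r * (v - 1) - v * ξ : ℂ) = A'
    simp only [pow_succ]
    generalize ξ ^ i = E
    generalize η ^ i = N
    generalize ρ ^ i = R
    linear_combination ((ξ + η) * R * (A * E * ξ - A' * N * η)
        - (r * ρ + 1) * R * (A * E * ξ ^ 2 - A' * N * η ^ 2)) * h1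
      + R * (A * E - A' * N) * h2 + ρ ^ 2 * R * (A * E * ξ ^ 2 - A' * N * η ^ 2) * hr
  · intro h hmh
    rw [hG h, hG (h + 1)]
    have hε : ξ ^ h * ξ ^ h * ξ * ξ = 1 := by
      rw [← hξ, hmh]; ring
    have hen := hEN h
    simp only [pow_succ]
    generalize ξ ^ h = E at *
    generalize η ^ h = N at *
    generalize ρ ^ h = R
    have hN : N * η = E * ξ := by
      linear_combination (-N * η) * hε + (ξ * η * E * ξ) * hen + (E * ξ) * h2
    have hE' : E = E * ξ * η := by linear_combination (-E) * h2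
    have hN' : N = E * ξ * ξ := by linear_combination (-N) * h2 + ξ * hN
    have core : ((u : ℂ) + v + r * (ξ + η)) * (ρ * ((u * v * ξ + r * (v - 1) - v * η)
        - (u * v * η + r * (v - 1) - v * ξ))) =
        (u + 1) * (((u * v * ξ + r * (v - 1) - v * η) * η - (u * v * η + r * (v - 1) - v * ξ) * ξ)
          + v * (ρ * ((u * v * ξ + r * (v - 1) - v * η) - (u * v * η + r * (v - 1) - v * ξ)))) := by
      linear_combination (((u : ℂ) + 1) * (ξ - η) * (v * (ξ + η) + (1 - v) * r)) * h1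
        - (((u : ℂ) + 1) * (ξ - η) * (1 - v) * ρ) * hr
    generalize (u * v * ξ + r * (v - 1) - v * η : ℂ) = A at *
    generalize (u * v * η + r * (v - 1) - v * ξ : ℂ) = A' at *
    linear_combination (R * E * ξ) * core
      + (-((u : ℂ) + v + r * (ξ + η)) * R * ρ * A' + ((u : ℂ) + 1) * v * R * ρ * A') * hN
      + (-((u : ℂ) + 1) * R * A) * hE' + (((u : ℂ) + 1) * R * A') * hN'
  · intro h hmh
    obtain ⟨huv, hru⟩ := hodd ⟨h + 1, by omega⟩
    subst huv
    subst hru
    rw [hG h, hG (h + 1)]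
    have hε : ξ ^ h * ξ ^ h * ξ * ξ * ξ = 1 := by
      rw [← hξ, hmh]; ring
    have hen := hEN h
    simp only [pow_succ]
    generalize ξ ^ h = E at *
    generalize η ^ h = N at *
    generalize ρ ^ h = R
    generalize (u : ℂ) = q at *
    have hN : N * η = E * ξ * ξ := by
      linear_combination (-N * η) * hε + (ξ * η * E * ξ * ξ) * hen + (E * ξ * ξ) * h2
    have hE' : E = E * ξ * η := by linear_combination (-E) * h2
    have hN' : N = E * ξ * ξ * ξ := by linear_combination (-N) * h2 + ξ * hN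
    have core : (q + q + q * (ξ + η)) * (ρ * ((q * q * ξ + q * (q - 1) - q * η)
        - (q * q * η + q * (q - 1) - q * ξ) * ξ)) =
        ((q * q * ξ + q * (q - 1) - q * η) * η - (q * q * η + q * (q - 1) - q * ξ) * ξ ^ 2)
          + (q + q * (q + 1)) * (ρ * ((q * q * ξ + q * (q - 1) - q * η)
            - (q * q * η + q * (q - 1) - q * ξ) * ξ)) := by
      linear_combination ((ξ + η - q) * ((q * q * ξ + q * (q - 1) - q * η)
          - (q * q * η + q * (q - 1) - q * ξ) * ξ)) * h1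
        + (-q - q ^ 2 * η - q * (q - 1) + q * ξ + q ^ 3) * h2
    generalize (q * q * ξ + q * (q - 1) - q * η : ℂ) = A at *
    generalize (q * q * η + q * (q - 1) - q * ξ : ℂ) = A' at *
    linear_combination (R * E * ξ) * core
      + (-(q + q + q * (ξ + η)) * R * ρ * A' + (q + q * (q + 1)) * R * ρ * A') * hN
      + (-R * A) * hE' + (R * A') * hN'

end Cfsg.Agent.Lib.Helper77.FH
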