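import Mathlib
import Cfsg.Agent.Lib.Helper76.GaloisChar

/-!
# The degree of the field generated by the values of a function = size of its Galois orbit
-/

set_option autoImplicit false

namespace Cfsg.Agent.Lib.Helper77.FieldOrb

open Cardinal

/-- The orbit of a complex valued function under the field automorphisms of `ℂ`. -/
def orb {X : Type*} (φ : X → ℂ) : Set (X → ℂ) :=
  {φ' | ∃ e : ℂ ≃+* ℂ, φ' = fun x => e (φ x)}

theorem mem_orb {X : Type*} (φ φ' : X → ℂ) :
    φ' ∈ orb φ ↔ ∃ e : ℂ ≃+* ℂ, φ' = fun x => e (φ x) := Iff.rfl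

theorem exists_extend (E : IntermediateField ℚ ℂ) [FiniteDimensional ℚ E] (τ : E →ₐ[ℚ] ℂ) :
    ∃ e : ℂ ≃+* ℂ, ∀ r : E, e (r : ℂ) = τ r := by
  have hR : #E ≤ ℵ₀ := by
    have := Algebra.IsAlgebraic.cardinalMk_le_max ℚ E
    simpa using this
  obtain ⟨e, he⟩ := @Cfsg.Agent.Lib.Helper76.exists_ringEquiv_of_isAlgClosed E ℂ ℂ _ _ _
    E.val.toRingHom.toAlgebra τ.toRingHom.toAlgebra _ _ hR
    (by rw [mk_complex]; exact aleph0_lt_continuum) rfl
  exact ⟨e, fun r => he r⟩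

theorem card_orb {X : Type*} [Finite X] (φ : X → ℂ) (hφ : ∀ x, IsIntegral ℚ (φ x)) :
    Finite (orb φ) ∧
    Module.finrank ℚ (IntermediateField.adjoin ℚ (Set.range φ)) = Nat.card (orb φ) := by
  classical
  set E := IntermediateField.adjoin ℚ (Set.range φ) with hE
  haveI : FiniteDimensional ℚ E := by
    apply IntermediateField.finiteDimensional_adjoin
    rintro _ ⟨x, rfl⟩
    exact hφ x
  have hmem : ∀ x, φ x ∈ E := fun x => IntermediateField.subset_adjoin ℚ _ ⟨x, rfl⟩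
  let f : (E →ₐ[ℚ] ℂ) → orb φ := fun τ => ⟨fun x => τ ⟨φ x, hmem x⟩, by
    obtain ⟨e, he⟩ := exists_extend E τ
    exact ⟨e, by ext x; exact (he ⟨φ x, hmem x⟩).symm⟩⟩
  have hinj : Function.Injective f := by
    intro τ₁ τ₂ h
    apply IntermediateField.adjoin_algHom_ext
    rintro _ ⟨x, rfl⟩
    have := congrFun (congrArg Subtype.val h) x
    exact this
  have hsurj : Function.Surjective f := by
    rintro ⟨φ', e, rfl⟩
    refine ⟨(e.toRingHom.toRatAlgHom).comp E.val, ?_⟩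
    rfl
  have hbij := Equiv.ofBijective f ⟨hinj, hsurj⟩
  refine ⟨Finite.of_equiv _ hbij, ?_⟩
  rw [← Nat.card_congr hbij, ← AlgHom.card ℚ E ℂ, Fintype.card_eq_nat_card]

end Cfsg.Agent.Lib.Helper77.FieldOrb
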