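import Mathlib
import Cfsg.Agent.Lib.Helper77.FieldOrb
import Cfsg.Agent.Lib.Helper15.Clifford2
import Cfsg.Agent.Lib.Helper80.Inflation
import Cfsg.Agent.Lib.Helper3.Mono2
import Cfsg.Agent.S0176
import Cfsg.Agent.Lib.Helper15.LinearHom

/-!
# Order of a `p`-group with a faithful irreducible character of given degree and field of values
-/

set_option autoImplicit false

namespace Cfsg.Agent.Lib.Helper77.PGrpBound

open Cfsg Cfsg.Agent.Lib.Helper15 Cfsg.Agent.Lib.Helper77.FieldOrb

section ind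
variable {G : Type*} [Group G] [Fintype G]

theorem map_extendByZero (e : ℂ ≃+* ℂ) (H : Subgroup G) (θ : H → ℂ) (g : G) :
    e (extendByZero H θ g) = extendByZero H (fun h => e (θ h)) g := by
  by_cases hg : g ∈ H
  · rw [extendByZero_mem H θ hg, extendByZero_mem H _ hg]
  · rw [extendByZero_not_mem H θ hg, extendByZero_not_mem H _ hg, map_zero]

theorem map_indFun (e : ℂ ≃+* ℂ) (H : Subgroup G) (θ : H → ℂ) :
    (fun g => e (indFun H θ g)) = indFun H (fun h => e (θ h)) := by
  funext g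
  rw [indFun_apply, indFun_apply, map_mul, map_inv₀, map_natCast, map_sum]
  simp_rw [map_extendByZero]

theorem char_eq_zero_of_one {δ : G → ℂ} (hδ : IsCharacter G δ) (h1 : δ 1 = 0) : δ = 0 := by
  by_contra h0
  obtain ⟨θ, hθ, hc⟩ := exists_constituent hδ h0
  have h2 := char_sub_irr hδ hθ hc
  obtain ⟨n, hn⟩ := char_one_nat h2
  obtain ⟨m, hm⟩ := char_one_nat (irr_char hθ)
  have hm0 := irr_one_ne_zero hθ
  rw [Pi.sub_apply, h1, hm] at hn
  rw [hm] at hm0
  have h3 : ((n + m : ℕ) : ℂ) = 0 := by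
    push_cast
    rw [← hn]
    ring
  have h4 : n + m = 0 := by exact_mod_cast h3
  apply hm0
  have : m = 0 := by omega
  rw [this]
  simp

theorem irr_of_ind_irr (H : Subgroup G) {ψ : H → ℂ} (hψ : IsCharacter H ψ)
    (h : IsIrrCharacter G (indFun H ψ)) : IsIrrCharacter H ψ := by
  have := Fintype.ofFinite H
  have h0 : ψ ≠ 0 := by
    rintro rfl
    apply irr_ne_zero h
    exact indFun_zero H
  obtain ⟨θ, hθ, hc⟩ := exists_constituent hψ h0
  have hδ := char_sub_irr hψ hθ hc
  have hsum : indFun H ψ = indFun H θ + indFun H (ψ - θ) := by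
    rw [← indFun_add]
    congr 1
    abel
  obtain ⟨χ', hχ', hc'⟩ := exists_constituent (char_indFun H (irr_char hθ))
    (indFun_ne_zero_of_irr H hθ)
  have h1 : classInner (indFun H ψ) χ' ≠ 0 := by
    rw [hsum, classInner_add_left]
    obtain ⟨a, ha⟩ := inner_nat (char_indFun H (irr_char hθ)) (irr_char hχ')
    obtain ⟨b, hb⟩ := inner_nat (char_indFun H hδ) (irr_char hχ')
    rw [ha] at hc' ⊢
    rw [hb]
    have : a ≠ 0 := by
      rintro rfl
      exact hc' (by simp)
    have h2 : a + b ≠ 0 := by omega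
    exact_mod_cast h2
  have h2 : indFun H ψ = χ' := irr_eq_of_inner_ne_zero h hχ' h1
  have h3 := char_sub_irr (char_indFun H (irr_char hθ)) hχ' hc'
  obtain ⟨n, hn⟩ := char_one_nat h3
  obtain ⟨m, hm⟩ := char_one_nat (char_indFun H hδ)
  rw [← h2, hsum, Pi.sub_apply, Pi.add_apply, hm] at hn
  have h4 : ((n + m : ℕ) : ℂ) = 0 := by
    push_cast
    rw [← hn]
    ring
  have h5 : n + m = 0 := by exact_mod_cast h4
  have h6 : m = 0 := by omega
  rw [h6, indFun_one] at hm
  have h7 : (H.index : ℂ) ≠ 0 := by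
    exact_mod_cast (Subgroup.index_ne_zero_of_finite (H := H))
  have h8 : (ψ - θ) 1 = 0 := by
    rcases mul_eq_zero.1 (hm.trans (by simp)) with h | h
    · exact absurd h h7
    · exact h
  have h9 := char_eq_zero_of_one hδ h8
  rw [sub_eq_zero] at h9
  rw [h9]
  exact hθ

theorem map_irr {X : Type*} [Group X] [Finite X] (e : ℂ ≃+* ℂ) {ψ : X → ℂ}
    (hψ : IsIrrCharacter X ψ) : IsIrrCharacter X (fun x => e (ψ x)) :=
  Cfsg.Agent.Lib.Helper76.IsIrrCharacter.map_ringHom hψ e.toRingHom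

theorem card_orb_le_of_fix (M : Subgroup G) (ψ : M → ℂ) [Finite (orb (indFun M ψ))]
    (h : ∀ e : ℂ ≃+* ℂ, (fun g => e (indFun M ψ g)) = indFun M ψ → (fun m => e (ψ m)) = ψ) :
    Nat.card (orb ψ) ≤ Nat.card (orb (indFun M ψ)) := by
  apply Nat.card_le_card_of_injective (fun ψ' : orb ψ =>
    (⟨indFun M ψ'.1, by
      obtain ⟨ψ', e, rfl⟩ := ψ'
      exact ⟨e, (map_indFun e M ψ).symm⟩⟩ : orb (indFun M ψ)))
  rintro ⟨_, e₁, rfl⟩ ⟨_, e₂, rfl⟩ h12
  have h1 : indFun M (fun m => e₁ (ψ m)) = indFun M (fun m => e₂ (ψ m)) :=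
    congrArg Subtype.val h12
  rw [← map_indFun, ← map_indFun] at h1
  have h2 := h (e₁.trans e₂.symm) (by
    funext g
    have := congrFun h1 g
    simp only [RingEquiv.trans_apply]
    rw [this, RingEquiv.symm_apply_apply])
  apply Subtype.ext
  funext m
  have := congrFun h2 m
  simp only [RingEquiv.trans_apply] at this
  show e₁ (ψ m) = e₂ (ψ m)
  rw [← this, RingEquiv.apply_symm_apply, this]

theorem card_orb_le_mul (M : Subgroup G) [hM : M.Normal] {ψ : M → ℂ} (hψ : IsIrrCharacter M ψ)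
    (hχ : IsIrrCharacter G (indFun M ψ)) [Finite (orb (indFun M ψ))] :
    Nat.card (orb ψ) ≤ Nat.card (orb (indFun M ψ)) * M.index := by
  classical
  have := Fintype.ofFinite M
  choose ε hε using fun χ' : orb (indFun M ψ) => χ'.2
  let F : orb (indFun M ψ) × (G ⧸ M) → (M → ℂ) :=
    fun x => cj M x.2.out (fun m => ε x.1 (ψ m))
  have hsub : orb ψ ⊆ Set.range F := by
    rintro _ ⟨e', rfl⟩
    set χ' : orb (indFun M ψ) := ⟨fun g => e' (indFun M ψ g), e', rfl⟩ with hχ'
    have hχ'irr : IsIrrCharacter G χ'.1 := map_irr e' hχ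
    have h1 : χ'.1 = indFun M (fun m => e' (ψ m)) := map_indFun e' M ψ
    have h2 : χ'.1 = indFun M (fun m => ε χ' (ψ m)) := by
      rw [← map_indFun]
      exact hε χ'
    have hc : ∀ θ : M → ℂ, IsIrrCharacter M θ → χ'.1 = indFun M θ →
        classInner (fun n : M => χ'.1 n) θ ≠ 0 := by
      intro θ hθ hθ'
      rw [inner_comm_of_char (char_restrict (irr_char hχ'irr) M) (irr_char hθ),
        ← classInner_indFun_left M θ _ (irr_cf hχ'irr), ← hθ', irr_inner_self hχ'irr]
      exact one_ne_zero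
    obtain ⟨g, hg⟩ := clifford_conj M hχ'irr (map_irr (ε χ') hψ) (map_irr e' hψ)
      (hc _ (map_irr (ε χ') hψ) h2) (hc _ (map_irr e' hψ) h1)
    refine ⟨(χ', (g : G ⧸ M)), ?_⟩
    obtain ⟨m, hm⟩ := QuotientGroup.mk_out_eq_mul M g
    show cj M (g : G ⧸ M).out (fun m => ε χ' (ψ m)) = _
    rw [hm, ← cj_cj, ← hg, cj_of_mem M m.2 (irr_cf (map_irr e' hψ))]
  calc Nat.card (orb ψ) ≤ Nat.card (Set.range F) := Nat.card_mono (Set.finite_range F) hsub
    _ ≤ Nat.card (orb (indFun M ψ) × (G ⧸ M)) := Finite.card_range_le F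
    _ = Nat.card (orb (indFun M ψ)) * M.index := by rw [Nat.card_prod]; rfl

end ind

section pgroup

variable {P : Type*} [Group P] [Fintype P]

theorem exists_max_ind {p a : ℕ} (hp : p.Prime) (hP : Nat.card P = p ^ a) {χ : P → ℂ}
    (hχ : IsIrrCharacter P χ) (h1 : χ 1 ≠ 1) :
    ∃ (M : Subgroup P) (ψ : M → ℂ), M.Normal ∧ M.index = p ∧ IsIrrCharacter M ψ ∧
      indFun M ψ = χ := by
  haveI : Fact p.Prime := ⟨hp⟩
  haveI : Group.IsNilpotent P := (IsPGroup.of_card hP).isNilpotent
  obtain ⟨H, lam, hlam⟩ := Cfsg.Agent.S0176.result χ hχ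
  have hHtop : H ≠ ⊤ := by
    rintro rfl
    apply h1
    rw [hlam, indFun_one]
    simp
  obtain ⟨b, hba, hb⟩ := (Nat.dvd_prime_pow hp).1 (hP ▸ Subgroup.card_subgroup_dvd_card H)
  have hlt : b < a := by
    rcases lt_or_eq_of_le hba with h | h
    · exact h
    · exfalso
      apply hHtop
      apply Subgroup.eq_top_of_card_eq
      rw [hb, hP, h]
  obtain ⟨M, hM, hHM⟩ := Sylow.exists_subgroup_card_pow_prime_le p (m := a - 1)
    (by rw [hP]; exact pow_dvd_pow p (Nat.sub_le a 1)) H hb (by omega)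
  have hidx : M.index = p := by
    have h2 := M.card_mul_index
    rw [hM, hP] at h2
    have h3 : p ^ a = p ^ (a - 1) * p := by
      rw [← pow_succ]
      congr 1
      omega
    rw [h3] at h2
    exact Nat.eq_of_mul_eq_mul_left (pow_pos hp.pos _) h2
  have hnorm : M.Normal := by
    apply Subgroup.normal_of_index_eq_minFac_card
    rw [hidx, hP, hp.pow_minFac (by omega)]
  have := Fintype.ofFinite M
  set lam' : H.subgroupOf M → ℂ :=
    fun x => (lam ⟨(x : M), Subgroup.mem_subgroupOf.mp x.2⟩ : ℂ) with hlam'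
  have htr := Cfsg.Agent.Lib.Helper3.indFun_trans H M hHM (fun h => (lam h : ℂ))
  have hchar : IsCharacter (H.subgroupOf M) lam' := by
    have := char_toFn (lam.comp (Subgroup.subgroupOfEquivOfLe hHM).toMonoidHom)
    exact this
  refine ⟨M, indFun (H.subgroupOf M) lam', hnorm, hidx, ?_, ?_⟩
  · apply irr_of_ind_irr M (char_indFun _ hchar)
    rw [htr, ← hlam]
    exact hχ
  · rw [htr, ← hlam]

theorem eq_top_of_index_prime {p : ℕ} (hp : p.Prime) {M S : Subgroup P} (hM : M.index = p)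
    (hMS : M ≤ S) {g : P} (hg : g ∈ S) (hgM : g ∉ M) : S = ⊤ := by
  have h1 : S.index ∣ p := hM ▸ Subgroup.index_dvd_of_le hMS
  rcases (Nat.dvd_prime hp).1 h1 with h | h
  · exact Subgroup.index_eq_one.1 h
  · exfalso
    have h2 := Subgroup.relIndex_mul_index hMS
    rw [h, hM] at h2
    have h3 : M.relIndex S = 1 := by
      have : M.relIndex S * p = 1 * p := by rw [h2, one_mul]
      exact Nat.eq_of_mul_eq_mul_right hp.pos this
    exact hgM (Subgroup.relIndex_eq_one.1 h3 hg)

theorem ind_eq_of_forall (M : Subgroup P) [hM : M.Normal] (ψ : M → ℂ) (m : M)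
    (h : ∀ x : P, cj M x ψ m = ψ 1) : indFun M ψ m = indFun M ψ 1 := by
  have h1 := indFun_normal_coe M ψ m
  have h2 := indFun_normal_coe M ψ 1
  rw [OneMemClass.coe_one] at h2
  rw [h1, h2]
  congr 1
  apply Finset.sum_congr rfl
  intro x _
  rw [h x, cj_apply_one]

theorem cj_map (M : Subgroup P) [hM : M.Normal] (e : ℂ ≃+* ℂ) (x : P) (ψ : M → ℂ) :
    cj M x (fun m => e (ψ m)) = fun m => e (cj M x ψ m) := rfl

theorem map_char_one {X : Type*} [Group X] (e : ℂ ≃+* ℂ) {ψ : X → ℂ} (hψ : IsCharacter X ψ) :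
    e (ψ 1) = ψ 1 := by
  obtain ⟨n, hn⟩ := char_one_nat hψ
  rw [hn, map_natCast]

/-- If some Galois automorphism fixes `ψ^P` and moves `ψ`, then `ψ` is faithful. -/
theorem faithful_of_moved {p : ℕ} (hp : p.Prime) (M : Subgroup P) [hM : M.Normal]
    (hidx : M.index = p) {ψ : M → ℂ} (hψ : IsIrrCharacter M ψ)
    (hχ : IsIrrCharacter P (indFun M ψ)) (hf : ∀ g : P, indFun M ψ g = indFun M ψ 1 → g = 1)
    (e : ℂ ≃+* ℂ) (he : (fun g => e (indFun M ψ g)) = indFun M ψ)
    (hne : (fun m => e (ψ m)) ≠ ψ) : ∀ m : M, ψ m = ψ 1 → m = 1 := by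
  classical
  have := Fintype.ofFinite M
  have hc : ∀ θ : M → ℂ, IsIrrCharacter M θ → indFun M ψ = indFun M θ →
      classInner (fun n : M => indFun M ψ n) θ ≠ 0 := by
    intro θ hθ hθ'
    rw [inner_comm_of_char (char_restrict (irr_char hχ) M) (irr_char hθ),
      ← classInner_indFun_left M θ _ (irr_cf hχ), ← hθ', irr_inner_self hχ]
    exact one_ne_zero
  obtain ⟨g, hg⟩ := clifford_conj M hχ hψ (map_irr e hψ) (hc _ hψ rfl)
    (hc _ (map_irr e hψ) (by rw [← map_indFun, he]))
  have hgM : g ∉ M := by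
    intro hgM
    rw [cj_of_mem M hgM (irr_cf hψ)] at hg
    exact hne hg
  let S : Subgroup P :=
    { carrier := {x | ∃ e' : ℂ ≃+* ℂ, cj M x ψ = fun m => e' (ψ m)}
      one_mem' := ⟨RingEquiv.refl ℂ, by rw [cj_one]; rfl⟩
      mul_mem' := by
        rintro x y ⟨ex, hx⟩ ⟨ey, hy⟩
        refine ⟨ey.trans ex, ?_⟩
        rw [← cj_cj, hx, cj_map, hy]
        rfl
      inv_mem' := by
        rintro x ⟨ex, hx⟩
        refine ⟨ex.symm, ?_⟩
        have h1 : cj M x⁻¹ (cj M x ψ) = ψ := cj_inv_cj M x ψ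
        rw [hx, cj_map] at h1
        funext m
        have h2 : ex (cj M x⁻¹ ψ m) = ψ m := congrFun h1 m
        rw [← h2, RingEquiv.symm_apply_apply] }
  have hMS : M ≤ S := fun x hx => ⟨RingEquiv.refl ℂ, by rw [cj_of_mem M hx (irr_cf hψ)]; rfl⟩
  have hgS : g ∈ S := ⟨e, hg.symm⟩
  have hS : S = ⊤ := eq_top_of_index_prime hp hidx hMS hgS hgM
  intro m hm
  have h1 : indFun M ψ m = indFun M ψ 1 := by
    apply ind_eq_of_forall
    intro x
    obtain ⟨e', he'⟩ : x ∈ S := by rw [hS]; trivial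
    rw [he']
    show e' (ψ m) = ψ 1
    rw [hm, map_char_one e' (irr_char hψ)]
  exact Subtype.ext (hf _ h1)

/-- `M` embeds in the product of `p` copies of `M / ker ψ`. -/
theorem card_le_pow (M : Subgroup P) [hM : M.Normal] {ψ : M → ℂ} (hψ : IsIrrCharacter M ψ)
    (hf : ∀ g : P, indFun M ψ g = indFun M ψ 1 → g = 1) (K : Subgroup M) [K.Normal]
    (hK : ∀ m : M, m ∈ K ↔ ψ m = ψ 1) :
    Nat.card M ≤ Nat.card (M ⧸ K) ^ M.index := by
  let Φ : M →* ((P ⧸ M) → M ⧸ K) :=
    MonoidHom.pi (fun q => (QuotientGroup.mk' K).comp (MulAut.conjNormal q.out).toMonoidHom)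
  have hinj : Function.Injective Φ := by
    rw [injective_iff_map_eq_one]
    intro m hm
    have h1 : indFun M ψ m = indFun M ψ 1 := by
      apply ind_eq_of_forall
      intro x
      obtain ⟨h, hh⟩ := QuotientGroup.mk_out_eq_mul M x
      have h2 : cj M (x : P ⧸ M).out ψ = cj M x ψ := by
        rw [hh, ← cj_cj, cj_of_mem M h.2 (irr_cf (irr_cj M x hψ))]
      rw [← h2, cj_eq_comp]
      have h3 := congrFun hm (x : P ⧸ M)
      have h4 : (MulAut.conjNormal (x : P ⧸ M).out : M ≃* M) m ∈ K := by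
        rw [← QuotientGroup.eq_one_iff]
        exact h3
      exact (hK _).1 h4
    exact Subtype.ext (hf _ h1)
  calc Nat.card M ≤ Nat.card ((P ⧸ M) → M ⧸ K) := Nat.card_le_card_of_injective Φ hinj
    _ = Nat.card (M ⧸ K) ^ M.index := by rw [Nat.card_fun]; rfl

end pgroup

theorem char_isIntegral {X : Type*} [Group X] [Finite X] {χ : X → ℂ} (hχ : IsCharacter X χ)
    (x : X) : IsIntegral ℚ (χ x) :=
  (Cfsg.Agent.Lib.Helper3.IsCharacter.isIntegral hχ x).tower_top

theorem linear_case {P : Type*} [Group P] [Finite P] {p a t : ℕ} (hp : p.Prime)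
    (hP : Nat.card P = p ^ a) {χ : P → ℂ} (hχ : IsCharacter P χ) (h1 : χ 1 = 1)
    (hf : ∀ g, χ g = χ 1 → g = 1)
    (ht : Module.finrank ℚ (IntermediateField.adjoin ℚ (Set.range χ)) ≤ (p - 1) * p ^ t) :
    a ≤ t + 1 := by
  rcases Nat.eq_zero_or_pos a with rfl | ha
  · omega
  obtain ⟨f, hfχ⟩ := Cfsg.Agent.Lib.Helper3.exists_hom_of_apply_one_eq_one hχ h1
  have hinj : Function.Injective ((Units.coeHom ℂ).comp f) := by
    rw [injective_iff_map_eq_one]
    intro g hg
    apply hf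
    rw [h1, hfχ]
    exact hg
  haveI : IsCyclic P := isCyclic_of_subgroup_isDomain _ hinj
  obtain ⟨g, hg⟩ := IsCyclic.exists_ofOrder_eq_natCard (α := P)
  have hord : orderOf (χ g) = p ^ a := by
    rw [← hP, ← hg, hfχ]
    exact orderOf_injective _ hinj g
  have hprim : IsPrimitiveRoot (χ g) (p ^ a) := hord ▸ IsPrimitiveRoot.orderOf (χ g)
  have hfd : FiniteDimensional ℚ (IntermediateField.adjoin ℚ (Set.range χ)) := by
    apply IntermediateField.finiteDimensional_adjoin
    rintro _ ⟨x, rfl⟩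
    exact char_isIntegral hχ x
  have hle : IntermediateField.adjoin ℚ {χ g} ≤ IntermediateField.adjoin ℚ (Set.range χ) :=
    IntermediateField.adjoin.mono ℚ _ _ (Set.singleton_subset_iff.2 ⟨g, rfl⟩)
  have h2 := IntermediateField.finrank_le_of_le_right hle
  rw [IntermediateField.adjoin.finrank (char_isIntegral hχ g),
    ← Polynomial.cyclotomic_eq_minpoly_rat hprim (pow_pos hp.pos a),
    Polynomial.natDegree_cyclotomic, Nat.totient_prime_pow hp ha] at h2
  have h3 : p ^ (a - 1) * (p - 1) ≤ p ^ t * (p - 1) := by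
    rw [mul_comm (p ^ t)]
    exact h2.trans ht
  have h4 : p ^ (a - 1) ≤ p ^ t :=
    Nat.le_of_mul_le_mul_right h3 (Nat.sub_pos_of_lt hp.one_lt)
  have h5 := (Nat.pow_le_pow_iff_right hp.one_lt).1 h4
  omega

theorem arith1 (p a a' f' t : ℕ) (hp : 2 ≤ p) (hf : 1 ≤ f')
    (h1 : (p - 1) * a' ≤ (f' - 1) + (p - 1) * (t + 1) * f') (h2 : a - 1 ≤ a' * p) :
    (p - 1) * a ≤ (p * f' - 1) + (p - 1) * (t + 1) * (p * f') := by
  obtain ⟨q, rfl⟩ : ∃ q, p = q + 1 := ⟨p - 1, by omega⟩
  obtain ⟨k, rfl⟩ : ∃ k, f' = k + 1 := ⟨f' - 1, by omega⟩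
  simp only [Nat.add_sub_cancel] at *
  have h0 : (q + 1) * (k + 1) - 1 = q * k + q + k := by
    have : (q + 1) * (k + 1) = q * k + q + k + 1 := by ring
    omega
  rw [h0]
  have h3 : a ≤ a' * (q + 1) + 1 := by omega
  calc q * a ≤ q * (a' * (q + 1) + 1) := Nat.mul_le_mul_left _ h3
    _ = (q + 1) * (q * a') + q := by ring
    _ ≤ (q + 1) * (k + q * (t + 1) * (k + 1)) + q := by gcongr
    _ = q * k + q + k + q * (t + 1) * ((q + 1) * (k + 1)) := by ring

theorem arith2 (p a f' t : ℕ) (hp : 2 ≤ p) (hf : 1 ≤ f') (ha : 1 ≤ a)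
    (h1 : (p - 1) * (a - 1) ≤ (f' - 1) + (p - 1) * (t + 1 + 1) * f') :
    (p - 1) * a ≤ (p * f' - 1) + (p - 1) * (t + 1) * (p * f') := by
  obtain ⟨q, rfl⟩ : ∃ q, p = q + 1 := ⟨p - 1, by omega⟩
  obtain ⟨k, rfl⟩ : ∃ k, f' = k + 1 := ⟨f' - 1, by omega⟩
  obtain ⟨b, rfl⟩ : ∃ b, a = b + 1 := ⟨a - 1, by omega⟩
  simp only [Nat.add_sub_cancel] at *
  have h0 : (q + 1) * (k + 1) - 1 = q * k + q + k := by
    have : (q + 1) * (k + 1) = q * k + q + k + 1 := by ring
    omega
  rw [h0]
  have hq : 1 ≤ q := by omega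
  have h4 : q * (t + 1) * (2 * (k + 1)) ≤ q * (t + 1) * ((q + 1) * (k + 1)) := by
    gcongr
  have h5 : q * (t + 1 + 1) * (k + 1) ≤ q * (t + 1) * (2 * (k + 1)) := by
    have : q * (t + 1) * (2 * (k + 1)) = q * (t + 1 + 1) * (k + 1) + q * t * (k + 1) := by ring
    omega
  have h6 : q * (b + 1) = q * b + q := by ring
  omega

universe u

theorem main {p : ℕ} (hp : p.Prime) : ∀ (a : ℕ) (P : Type u) [Group P] [Finite P],
    Nat.card P = p ^ a → ∀ (χ : P → ℂ), IsIrrCharacter P χ → (∀ g, χ g = χ 1 → g = 1) →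
    ∀ t : ℕ, Module.finrank ℚ (IntermediateField.adjoin ℚ (Set.range χ)) ≤ (p - 1) * p ^ t →
    (p - 1) * a ≤ (charDegree χ - 1) + (p - 1) * (t + 1) * charDegree χ := by
  intro a
  induction a using Nat.strong_induction_on with
  | _ a ih =>
    intro P _ _ hP χ hχ hf t ht
    have := Fintype.ofFinite P
    by_cases h1 : χ 1 = 1
    · have h2 := linear_case hp hP (irr_char hχ) h1 hf ht
      have h3 : charDegree χ = 1 := by
        have := Cfsg.Agent.Lib.Helper80.char_one_eq_charDegree (irr_char hχ)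
        rw [h1] at this
        exact_mod_cast this.symm
      rw [h3]
      simp only [Nat.sub_self, zero_add, mul_one]
      exact Nat.mul_le_mul_left _ h2
    · obtain ⟨M, ψ, hMn, hidx, hψ, rfl⟩ := exists_max_ind hp hP hχ h1
      have hcardM : Nat.card M * p = p ^ a := by
        have := M.card_mul_index
        rw [hidx, hP] at this
        exact this
      have ha : 0 < a := by
        rcases Nat.eq_zero_or_pos a with rfl | h
        · exfalso
          rw [pow_zero] at hcardM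
          have := Nat.eq_one_of_mul_eq_one_left hcardM
          exact hp.one_lt.ne' this
        · exact h
      have hM' : Nat.card M = p ^ (a - 1) := by
        have h3 : p ^ a = p ^ (a - 1) * p := by
          rw [← pow_succ]
          congr 1
          omega
        rw [h3] at hcardM
        exact Nat.eq_of_mul_eq_mul_right hp.pos hcardM
      have hdeg : charDegree (indFun M ψ) = p * charDegree ψ := by
        have h2 := Cfsg.Agent.Lib.Helper80.char_one_eq_charDegree (irr_char hχ)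
        rw [indFun_one, hidx, Cfsg.Agent.Lib.Helper80.char_one_eq_charDegree (irr_char hψ)] at h2
        exact_mod_cast h2.symm
      have hf' : 0 < charDegree ψ := Cfsg.Agent.Lib.Helper80.charDegree_pos_of_irr hψ
      obtain ⟨hfinχ, hcχ⟩ := card_orb (indFun M ψ) (char_isIntegral (irr_char hχ))
      obtain ⟨hfinψ, hcψ⟩ := card_orb ψ (char_isIntegral (irr_char hψ))
      rw [hdeg]
      by_cases hfix : ∀ e : ℂ ≃+* ℂ, (fun g => e (indFun M ψ g)) = indFun M ψ →
          (fun m => e (ψ m)) = ψ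
      · have h2 : Module.finrank ℚ (IntermediateField.adjoin ℚ (Set.range ψ)) ≤ (p - 1) * p ^ t := by
          rw [hcψ]
          exact (card_orb_le_of_fix M ψ hfix).trans (hcχ ▸ ht)
        set K := Cfsg.Agent.Lib.Helper80.charKer ψ (irr_char hψ) with hK
        haveI : K.Normal := Cfsg.Agent.Lib.Helper80.charKer_normal (irr_char hψ)
        obtain ⟨ψb, hψb, hval⟩ := Cfsg.Agent.Lib.Helper80.exists_deflate_irr K hψ (fun n hn => hn)
        obtain ⟨a', ha'le, ha'⟩ := (Nat.dvd_prime_pow hp).1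
          (hM' ▸ (Subgroup.card_quotient_dvd_card K))
        have hrange : Set.range ψb = Set.range ψ := by
          ext z
          constructor
          · rintro ⟨q, rfl⟩
            obtain ⟨m, rfl⟩ := QuotientGroup.mk_surjective q
            exact ⟨m, (hval m).symm⟩
          · rintro ⟨m, rfl⟩
            exact ⟨(m : M ⧸ K), hval m⟩
        have hfb : ∀ q : M ⧸ K, ψb q = ψb 1 → q = 1 := by
          intro q hq
          obtain ⟨m, rfl⟩ := QuotientGroup.mk_surjective q
          have h3 : ψb ((1 : M) : M ⧸ K) = ψ 1 := hval 1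
          rw [QuotientGroup.mk_one] at h3
          rw [hval, h3] at hq
          exact (QuotientGroup.eq_one_iff m).2 hq
        have ih' := ih a' (by omega) (M ⧸ K) ha' ψb hψb hfb t (by rw [hrange]; exact h2)
        have hdegb : charDegree ψb = charDegree ψ := by
          have h3 : ψb ((1 : M) : M ⧸ K) = ψ 1 := hval 1
          rw [QuotientGroup.mk_one] at h3
          unfold charDegree
          rw [h3]
        rw [hdegb] at ih'
        have hle := card_le_pow M hψ hf K (fun m => Iff.rfl)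
        rw [hM', ha', hidx, ← pow_mul] at hle
        have h5 : a - 1 ≤ a' * p := (Nat.pow_le_pow_iff_right hp.one_lt).1 hle
        exact arith1 p a a' _ t hp.two_le hf' ih' h5
      · push Not at hfix
        obtain ⟨e, he, hne⟩ := hfix
        have hfaith := faithful_of_moved hp M hidx hψ hχ hf e he hne
        have h2 : Module.finrank ℚ (IntermediateField.adjoin ℚ (Set.range ψ))
            ≤ (p - 1) * p ^ (t + 1) := by
          rw [hcψ]
          calc Nat.card (orb ψ) ≤ Nat.card (orb (indFun M ψ)) * M.index :=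
                card_orb_le_mul M hψ hχ
            _ ≤ ((p - 1) * p ^ t) * p := by
                rw [hidx]
                exact Nat.mul_le_mul_right _ (hcχ ▸ ht)
            _ = (p - 1) * p ^ (t + 1) := by rw [pow_succ, mul_assoc]
        have ih' := ih (a - 1) (by omega) M hM' ψ hψ hfaith (t + 1) h2
        exact arith2 p a _ t hp.two_le hf' ha ih'

end Cfsg.Agent.Lib.Helper77.PGrpBound
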