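import Mathlib
import Cfsg.Agent.Lib.Helper15.Ward.Defs
import Cfsg.Agent.Lib.Helper25.NilpotentCoprime
import Cfsg.Agent.Lib.Helper69.SylowCent

/-!
# Ward's theorem (S3796), piece E3
-/

set_option autoImplicit false

namespace Cfsg.Agent.Lib.Helper77.Ward

open Subgroup Cfsg.Agent.Lib.Helper88 Cfsg.Agent.Lib.Helper15.Ward

theorem commute_of_nilpotent {Γ : Type*} [Group Γ] [Finite Γ] (H V : Subgroup Γ) [V.Normal]
    (hH : Group.IsNilpotent ↥H) {r : ℕ} (hr : r.Prime) (hVr : ∀ x ∈ V, x ^ r = 1) (g : Γ)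
    (hg : g ∈ H) (hy : ¬ r ∣ orderOf (MulAut.conjNormal g : MulAut V)) (v : Γ) (hv : v ∈ V)
    (hvH : v ∈ H) : g * v = v * g := by
  have : Fact r.Prime := ⟨hr⟩
  obtain ⟨a, b, hab, ⟨k, hk⟩, hb⟩ := Cfsg.Agent.Lib.Helper69.exists_p_decomp r g
  -- the `r`-part acts trivially on `V`
  have h1 : (MulAut.conjNormal (g ^ a) : MulAut V) = 1 := by
    rw [← orderOf_eq_one_iff]
    have d1 : orderOf (MulAut.conjNormal (g ^ a) : MulAut V) ∣ r ^ k := by
      apply orderOf_dvd_of_pow_eq_one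
      rw [← map_pow, hk, map_one]
    have d2 : orderOf (MulAut.conjNormal (g ^ a) : MulAut V) ∣
        orderOf (MulAut.conjNormal g : MulAut V) := by
      rw [map_pow]
      exact orderOf_pow_dvd a
    have hcop : (r ^ k).Coprime (orderOf (MulAut.conjNormal g : MulAut V)) :=
      Nat.Coprime.pow_left k ((Nat.Prime.coprime_iff_not_dvd hr).2 hy)
    exact Nat.eq_one_of_dvd_coprimes hcop d1 d2
  have h2 : g ^ a * v = v * g ^ a := by
    have h3 : ((MulAut.conjNormal (g ^ a) : MulAut V) ⟨v, hv⟩ : Γ) = v := by rw [h1]; rfl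
    rw [MulAut.conjNormal_apply] at h3
    calc g ^ a * v = g ^ a * v * (g ^ a)⁻¹ * g ^ a := by group
      _ = v * g ^ a := by rw [h3]
  have h4 : g ^ b * v = v * g ^ b := by
    apply Cfsg.Agent.Lib.Helper25.commute_of_coprime_orderOf_of_mem hH (H.pow_mem hg b) hvH
    have d : orderOf v ∣ r := orderOf_dvd_of_pow_eq_one (hVr v hv)
    exact Nat.Coprime.coprime_dvd_right d ((Nat.Prime.coprime_iff_not_dvd hr).2 hb).symm
  calc g * v = g ^ a * (g ^ b * v) := by rw [← mul_assoc, hab]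
    _ = (g ^ a * v) * g ^ b := by rw [h4, mul_assoc]
    _ = v * (g ^ a * g ^ b) := by rw [h2, mul_assoc]
    _ = v * g := by rw [hab]

end Cfsg.Agent.Lib.Helper77.Ward
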