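import Mathlib
import Cfsg.Agent.Lib.Helper15.Ward.Defs

/-!
# Ward's theorem (S3796), piece E4
-/

set_option autoImplicit false

namespace Cfsg.Agent.Lib.Helper77.Ward

open Subgroup Cfsg.Agent.Lib.Helper88 Cfsg.Agent.Lib.Helper15.Ward

theorem eq_bot_of_normal_rgroup {Γ : Type*} [Group Γ] [Finite Γ] (V G A : Subgroup Γ) [V.Normal]
    (hGA : G ⊔ A = ⊤) (hV1 : V ≠ ⊥)
    (hmin : ∀ M : Subgroup Γ, M.Normal → M ≤ V → M = ⊥ ∨ M = V) {r : ℕ} (hr : r.Prime)
    (hVr : ∀ x ∈ V, x ^ r = 1) (R : Subgroup (MulAut V))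
    (hGR : G.map (MulAut.conjNormal : Γ →* MulAut V) ≤ normalizer (R : Set (MulAut V)))
    (hAR : A.map (MulAut.conjNormal : Γ →* MulAut V) ≤ normalizer (R : Set (MulAut V)))
    (hR : IsPGroup r R) : R = ⊥ := by
  have : Fact r.Prime := ⟨hr⟩
  -- the fixed points of `R` on `V`
  let M0 : Subgroup V :=
    { carrier := {v | ∀ ρ ∈ R, ρ v = v}
      one_mem' := fun ρ _ => map_one ρ
      mul_mem' := by
        intro a b ha hb ρ hρ
        rw [map_mul, ha ρ hρ, hb ρ hρ]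
      inv_mem' := by
        intro a ha ρ hρ
        rw [map_inv, ha ρ hρ] }
  have hM0 : ∀ v : V, v ∈ M0 ↔ ∀ ρ ∈ R, ρ v = v := fun v => Iff.rfl
  set M : Subgroup Γ := M0.map V.subtype with hM
  have hMV : M ≤ V := by
    rintro _ ⟨v, _, rfl⟩
    exact v.2
  -- `M0 ≠ ⊥`
  have hVp : IsPGroup r V := Cfsg.Agent.Lib.Helper22.isPGroup_of_pow_eq_one hVr
  have hM0ne : M0 ≠ ⊥ := by
    intro hbot
    have hVnt : Nontrivial V := (nontrivial_iff_ne_bot V).mpr hV1
    obtain ⟨n, hn⟩ := hVp.exists_card_eq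
    have hn0 : n ≠ 0 := by
      rintro rfl
      rw [pow_zero] at hn
      have := Finite.one_lt_card (α := V)
      omega
    have hdvd : r ∣ Nat.card V := by rw [hn]; exact dvd_pow_self r hn0
    have h1 : (1 : V) ∈ MulAction.fixedPoints R V := by
      intro ρ
      exact map_one (ρ : MulAut V)
    obtain ⟨v, hv, hv1⟩ := hR.exists_fixed_point_of_prime_dvd_card_of_fixed_point V hdvd h1
    apply hv1
    have : v ∈ M0 := by
      rw [hM0]
      intro ρ hρ
      exact hv ⟨ρ, hρ⟩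
    rw [hbot, mem_bot] at this
    exact this.symm
  have hMne : M ≠ ⊥ := by
    intro h
    apply hM0ne
    rw [hM] at h
    exact (map_eq_bot_iff_of_injective _ V.subtype_injective).mp h
  -- invariance
  have key : ∀ γ : Γ, (MulAut.conjNormal γ : MulAut V) ∈ normalizer (R : Set (MulAut V)) →
      ∀ x ∈ M, γ * x * γ⁻¹ ∈ M := by
    rintro γ hγ _ ⟨v, hv, rfl⟩
    refine ⟨MulAut.conjNormal γ v, ?_, by simp⟩
    have hv' := (hM0 v).mp hv
    show _ ∈ M0
    rw [hM0]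
    intro ρ hρ
    set c : MulAut V := MulAut.conjNormal γ with hc
    have h1 : c⁻¹ * ρ * c ∈ R := by
      have := (mem_normalizer_iff.mp (inv_mem hγ) ρ).mp hρ
      simpa using this
    have h2 := hv' _ h1
    have h3 : ρ (c v) = c ((c⁻¹ * ρ * c) v) := by
      simp [MulAut.mul_apply]
    rw [h3, h2]
  have hnorm : M.Normal := by
    rw [← normalizer_eq_top_iff, eq_top_iff, ← hGA, sup_le_iff]
    have aux : ∀ γ : Γ, (∀ x ∈ M, γ * x * γ⁻¹ ∈ M) → (∀ x ∈ M, γ⁻¹ * x * γ⁻¹⁻¹ ∈ M) →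
        γ ∈ normalizer (M : Set Γ) := by
      intro γ h1 h2
      rw [mem_normalizer_iff]
      intro x
      refine ⟨h1 x, fun hx => ?_⟩
      have := h2 _ hx
      have e : γ⁻¹ * (γ * x * γ⁻¹) * γ⁻¹⁻¹ = x := by group
      rwa [e] at this
    constructor
    · intro γ hγ
      exact aux γ (key γ (hGR (mem_map_of_mem _ hγ))) (key γ⁻¹ (hGR (mem_map_of_mem _ (inv_mem hγ))))
    · intro γ hγ
      exact aux γ (key γ (hAR (mem_map_of_mem _ hγ))) (key γ⁻¹ (hAR (mem_map_of_mem _ (inv_mem hγ))))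
  rcases hmin M hnorm hMV with h | h
  · exact absurd h hMne
  · rw [eq_bot_iff]
    intro ρ hρ
    rw [mem_bot]
    ext v
    have hv : (v : Γ) ∈ M := by rw [h]; exact v.2
    obtain ⟨w, hw, hwv⟩ := hv
    have : w = v := Subtype.ext hwv
    subst this
    rw [(hM0 w).mp hw ρ hρ]
    rfl

end Cfsg.Agent.Lib.Helper77.Ward
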