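import Mathlib
import Cfsg.Agent.S0887
import Cfsg.Agent.Lib.Helper80.Induced
import Cfsg.Agent.Lib.Helper80.CoreDvd
import Cfsg.Agent.Lib.Helper35.BlockNormal
import Cfsg.Prelude.Def_BrauerPairs

/-!
# Characters of defect zero of a quotient and normal subgroups (helper77)
-/

set_option autoImplicit false
set_option linter.unusedSectionVars false

namespace Cfsg.Agent.Lib.Helper77

open Cfsg
open scoped ComplexConjugate

theorem sum_comp_surjective {A B : Type*} [Group A] [Group B] [Fintype A] [Fintype B]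
    (f : A →* B) (hf : Function.Surjective f) (F : B → ℂ) :
    ∑ a : A, F (f a) = (Nat.card f.ker : ℂ) * ∑ b : B, F b := by
  classical
  rw [← Finset.sum_fiberwise (s := Finset.univ) (g := f) (f := fun a => F (f a)), Finset.mul_sum]
  apply Finset.sum_congr rfl
  intro b _
  rw [Finset.sum_congr rfl (g := fun _ => F b)
    (fun a ha => by rw [(Finset.mem_filter.1 ha).2]), Finset.sum_const, nsmul_eq_mul]
  congr 2
  rw [MonoidHom.card_fiber_eq_of_mem_range f (hf b) (hf 1), Nat.card_eq_fintype_card,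
    Fintype.card_subtype]
  congr 1
  ext a
  simp [MonoidHom.mem_ker]

theorem exists_constituent_defect_zero {X : Type*} [Group X] [Fintype X] {p : ℕ} [Fact p.Prime]
    (Q C : Subgroup X) [Q.Normal] [C.Normal] [Fintype C] (χ : IrrCharacter X)
    (hχQ : ∀ q ∈ Q, (χ : X → ℂ) q = (χ : X → ℂ) 1)
    (hdeg : (charDegree (χ : X → ℂ)).factorization p + (Nat.card Q).factorization p
      = (Nat.card X).factorization p) :
    ∃ θ : IrrCharacter C, classInner (fun c : C => (χ : X → ℂ) c) (θ : C → ℂ) ≠ 0 ∧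
      (charDegree (θ : C → ℂ)).factorization p = ((Q.subgroupOf C).index).factorization p := by
  classical
  have hp : p.Prime := Fact.out
  obtain ⟨ψ, hψirr, hψ⟩ := Cfsg.Agent.Lib.Helper80.exists_deflate_irr Q χ.2 hχQ
  set π := QuotientGroup.mk' Q with hπ
  set Nb : Subgroup (X ⧸ Q) := C.map π with hNb
  haveI : Nb.Normal := Subgroup.Normal.map inferInstance π (QuotientGroup.mk'_surjective Q)
  haveI := Fintype.ofFinite (X ⧸ Q)
  haveI := Fintype.ofFinite Nb
  obtain ⟨ϑ, hϑ⟩ := Cfsg.Agent.Lib.Helper80.exists_constituent_restrict ⟨ψ, hψirr⟩ Nb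
  have hc1 : ψ 1 = (charDegree ψ : ℂ) :=
    Cfsg.Agent.Lib.Helper80.char_one_eq_charDegree (Cfsg.Agent.Lib.Helper80.isCharacter_of_irr hψirr)
  have hd1 : (ϑ : Nb → ℂ) 1 = (charDegree (ϑ : Nb → ℂ) : ℂ) :=
    Cfsg.Agent.Lib.Helper80.char_one_eq_charDegree (Cfsg.Agent.Lib.Helper80.isCharacter_of_irr ϑ.2)
  obtain ⟨h1, h2⟩ := Cfsg.Agent.S0887.result Nb ψ hψirr ϑ ϑ.2 hϑ _ _ hc1 hd1
  set f : C →* Nb := π.subgroupMap C with hf
  have hfs : Function.Surjective f := π.subgroupMap_surjective C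
  refine ⟨⟨(ϑ : Nb → ℂ) ∘ f, Cfsg.Agent.Lib.Helper80.isIrrCharacter_comp f hfs ϑ.2⟩, ?_, ?_⟩
  · unfold classInner at hϑ ⊢
    have e1 : ∑ c : C, (χ : X → ℂ) c * conj (((ϑ : Nb → ℂ) ∘ f) c)
        = ∑ c : C, (fun n : Nb => ψ n * conj ((ϑ : Nb → ℂ) n)) (f c) := by
      apply Finset.sum_congr rfl
      intro c _
      show (χ : X → ℂ) c * conj ((ϑ : Nb → ℂ) (f c)) = ψ (f c) * conj ((ϑ : Nb → ℂ) (f c))
      rw [← hψ]
      rfl
    show (Nat.card C : ℂ)⁻¹ * ∑ c : C, (χ : X → ℂ) c * conj (((ϑ : Nb → ℂ) ∘ f) c) ≠ 0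
    rw [e1, sum_comp_surjective f hfs (fun n : Nb => ψ n * conj ((ϑ : Nb → ℂ) n))]
    have h3 : (∑ n : Nb, ψ n * conj ((ϑ : Nb → ℂ) n)) ≠ 0 := fun h => hϑ (by
      show (Nat.card Nb : ℂ)⁻¹ * ∑ n : Nb, ψ n * conj ((ϑ : Nb → ℂ) n) = 0
      rw [h, mul_zero])
    have h4 : (Nat.card C : ℂ) ≠ 0 := by exact_mod_cast Nat.card_pos.ne'
    have h5 : (Nat.card f.ker : ℂ) ≠ 0 := by exact_mod_cast Nat.card_pos.ne'
    exact mul_ne_zero (inv_ne_zero h4) (mul_ne_zero h5 h3)
  · have e0 : charDegree ((ϑ : Nb → ℂ) ∘ f) = charDegree (ϑ : Nb → ℂ) := by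
      unfold charDegree
      simp
    show (charDegree ((ϑ : Nb → ℂ) ∘ f)).factorization p = _
    rw [e0]
    have hker : f.ker = Q.subgroupOf C := by
      ext c
      rw [MonoidHom.mem_ker, Subgroup.mem_subgroupOf, Subtype.ext_iff]
      exact QuotientGroup.eq_one_iff (c : X)
    have hidx : (Q.subgroupOf C).index = Nat.card Nb := by
      rw [← hker, Subgroup.index_ker, MonoidHom.range_eq_top.2 hfs, Subgroup.card_top]
    rw [hidx]
    have hdpos : 0 < charDegree (ϑ : Nb → ℂ) := Cfsg.Agent.Lib.Helper80.charDegree_pos_of_irr ϑ.2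
    have hcpos : 0 < charDegree ψ := Cfsg.Agent.Lib.Helper80.charDegree_pos_of_irr hψirr
    have hle1 : (charDegree (ϑ : Nb → ℂ)).factorization p ≤ (Nat.card Nb).factorization p :=
      (Nat.factorization_le_iff_dvd hdpos.ne' Nat.card_pos.ne').2
        (Cfsg.Agent.Lib.Helper80.charDegree_dvd_card ϑ) p
    have hcχ : charDegree ψ = charDegree (χ : X → ℂ) := by
      unfold charDegree
      rw [← hψ 1]
      rfl
    have hq : 0 < charDegree ψ / charDegree (ϑ : Nb → ℂ) :=
      Nat.div_pos (Nat.le_of_dvd hcpos h1) hdpos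
    have e2 : (charDegree ψ).factorization p = (charDegree (ϑ : Nb → ℂ)).factorization p
        + (charDegree ψ / charDegree (ϑ : Nb → ℂ)).factorization p := by
      conv_lhs => rw [← Nat.mul_div_cancel' h1]
      rw [Nat.factorization_mul hdpos.ne' hq.ne']
      rfl
    have e3 : (charDegree ψ / charDegree (ϑ : Nb → ℂ)).factorization p
        ≤ Nb.index.factorization p :=
      (Nat.factorization_le_iff_dvd hq.ne' Subgroup.index_ne_zero_of_finite).2 h2 p
    have e4 : (Nat.card (X ⧸ Q)).factorization p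
        = (Nat.card Nb).factorization p + Nb.index.factorization p := by
      rw [← Nb.card_mul_index, Nat.factorization_mul Nat.card_pos.ne'
        Subgroup.index_ne_zero_of_finite]
      rfl
    have e5 : (Nat.card X).factorization p
        = (Nat.card Q).factorization p + (Nat.card (X ⧸ Q)).factorization p := by
      rw [← Q.card_mul_index, Nat.factorization_mul Nat.card_pos.ne'
        Subgroup.index_ne_zero_of_finite, Subgroup.index_eq_card]
      rfl
    have e6 := hdeg
    rw [← hcχ] at e6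
    omega

/-- If the idempotent of the block `F` of `X` is that of the set `e` of characters of the normal
subgroup `C`, then the constituents of the restrictions to `C` of the members of `F` lie in `e`. -/
theorem mem_of_over_of_blockCoeff_eq {X : Type*} [Group X] [Fintype X]
    (C : Subgroup X) [C.Normal] [Fintype C] {F : Set (IrrCharacter X)} {e : Set (IrrCharacter C)}
    (hFe : ∀ x : X, blockCoeff F x = subgroupBlockCoeff C e x) {χ : IrrCharacter X} (hχ : χ ∈ F)
    {θ : IrrCharacter C} (hθ : classInner (fun c : C => (χ : X → ℂ) c) (θ : C → ℂ) ≠ 0) :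
    θ ∈ e := by
  classical
  have h1 := Cfsg.Agent.Lib.Helper35.omega_restrict_of_over C χ.2 θ.2 hθ
    (Cfsg.Agent.Lib.Helper78.blockCoeff_isClassFunction F)
  have h2 := Cfsg.Agent.Lib.Helper35.omega_eq_of_support C (χ : X → ℂ) (a := blockCoeff F)
    (fun g hg => by rw [hFe]; unfold subgroupBlockCoeff; rw [dif_neg hg])
  rw [← h2, Cfsg.Agent.Lib.Helper78.omega_blockCoeff, if_pos hχ] at h1
  have h3 : (fun c : C => blockCoeff F (c : X)) = blockCoeff e := by
    funext c
    rw [hFe]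
    unfold subgroupBlockCoeff
    rw [dif_pos c.2]
  rw [h3, Cfsg.Agent.Lib.Helper78.omega_blockCoeff] at h1
  by_contra hne
  rw [if_neg hne] at h1
  exact one_ne_zero h1

end Cfsg.Agent.Lib.Helper77
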